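import Cfsg.Agent.H41.S6Kit2
import Cfsg.Agent.H67.Conj

/-! Project SP6, piece MEA. -/

set_option autoImplicit false
set_option linter.unusedSectionVars false

namespace Cfsg.Agent.H92.S6

open Cfsg Subgroup
open Cfsg.Agent.H44 Cfsg.Agent.H55.Sp6 Cfsg.Agent.H2.L3E Cfsg.Agent.H41.S6
open Cfsg.Agent.H63 (cj)

universe u

variable {G : Type u} [Group G] [Finite G] {ι : Sp →* G} {t : G}

theorem comm_of_sq {M : Subgroup G} (ea : ∀ m ∈ M, m * m = 1) {x y : G} (hx : x ∈ M) (hy : y ∈ M) :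
    x * y = y * x := by
  rw [← inv_eq_of_mul_eq_one_right (ea _ (mul_mem hx hy)), mul_inv_rev,
    inv_eq_of_mul_eq_one_right (ea _ hx), inv_eq_of_mul_eq_one_right (ea _ hy)]

theorem sq_of_conj (h : Hy ι t) {y : G} (c : IsConj t y) : y * y = 1 := by
  obtain ⟨z, rfl⟩ := isConj_iff.1 c
  rw [conj_mul, h.tt, mul_one, mul_inv_cancel]

/-- the translation map of an elementary abelian group normalized by `t` -/
def trl {M : Subgroup G} (ea : ∀ m ∈ M, m * m = 1) (nt : ∀ m ∈ M, t * m * t⁻¹ ∈ M) : M →* G where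
  toFun m := t⁻¹ * (m * t * (m : G)⁻¹)
  map_one' := by simp
  map_mul' m n := by
    have e : ∀ m ∈ M, t⁻¹ * m * t ∈ M := fun m hm =>
      (mem_normalizer_iff''.1 (mem_normalizer_fintype nt) m).1 hm
    have c := comm_of_sq ea (inv_mem m.2) (mul_mem (e _ n.2) (inv_mem n.2))
    push_cast
    calc _ = t⁻¹ * m * t * (t⁻¹ * n * t * (n : G)⁻¹ * (m : G)⁻¹) := by group
      _ = _ := by rw [← c]; group

theorem card_sup_t (h : Hy ι t) {I : Subgroup G} (c : ∀ x ∈ I, x * t = t * x) (n : t ∉ I) :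
    Nat.card ↥(I ⊔ zpowers t) = Nat.card I * 2 := by
  have o : orderOf t = 2 := orderOf_eq_prime (by rw [pow_two, h.tt]) h.t_ne_one
  rw [H67.card_sup_of_inf_eq_bot (Or.inr (zpowers_le.2 (centralizer_le_normalizer _ c))),
    Nat.card_zpowers, o]
  refine (eq_bot_iff_forall _).2 fun y hy => ?_
  obtain ⟨i, rfl⟩ := mem_zpowers_iff.1 hy.2
  rcases Int.even_or_odd' i with ⟨j, rfl | rfl⟩
  · rw [zpow_mul, zpow_two, h.tt, one_zpow]
  · have := hy.1
    rw [zpow_add, zpow_mul, zpow_two, h.tt, one_zpow, one_mul, zpow_one] at this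
    exact absurd this n

theorem mem_sup_t (h : Hy ι t) {I : Subgroup G} (c : ∀ x ∈ I, x * t = t * x) {y : G}
    (hy : y ∈ I ⊔ zpowers t) : y ∈ I ∨ ∃ x ∈ I, y = x * t := by
  obtain ⟨x, hx, z, hz, rfl⟩ := (H67.mem_sup_of_le_normalizer'
    (zpowers_le.2 (centralizer_le_normalizer _ c))).1 hy
  obtain ⟨i, rfl⟩ := mem_zpowers_iff.1 hz
  rcases Int.even_or_odd' i with ⟨j, rfl | rfl⟩
  · rw [zpow_mul, zpow_two, h.tt, one_zpow, mul_one]; exact Or.inl hx
  · rw [zpow_add, zpow_mul, zpow_two, h.tt, one_zpow, one_mul, zpow_one]; exact Or.inr ⟨x, hx, rfl⟩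

section

variable {M : Subgroup G} (ea : ∀ m ∈ M, m * m = 1) (nt : ∀ m ∈ M, t * m * t⁻¹ ∈ M)

theorem trl_eq (m : M) : (m : G) * t * (m : G)⁻¹ = t * trl ea nt m := by
  simp [trl]

theorem trl_card : Nat.card ↥(M ⊓ centralizer {t}) * Nat.card (trl ea nt).range = Nat.card M := by
  have hk : (trl ea nt).ker = (M ⊓ centralizer {t}).subgroupOf M := by
    ext m
    rw [MonoidHom.mem_ker, mem_subgroupOf, mem_inf, mem_centralizer_singleton_iff]
    show t⁻¹ * (m * t * (m : G)⁻¹) = 1 ↔ _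
    rw [inv_mul_eq_one, eq_mul_inv_iff_mul_eq]
    exact ⟨fun e => ⟨m.2, e.symm⟩, fun e => e.2.symm⟩
  rw [← (trl ea nt).ker.card_mul_index, index_ker, hk, H67.card_subgroupOf inf_le_left]

theorem trl_le (h : Hy ι t) : (trl ea nt).range ≤ M ⊓ centralizer {t} := by
  rintro _ ⟨m, rfl⟩
  have e : trl ea nt m = t * m * t⁻¹ * (m : G)⁻¹ := by
    show t⁻¹ * (m * t * (m : G)⁻¹) = _
    rw [h.tinv]; group
  have m1 : trl ea nt m ∈ M := e ▸ mul_mem (nt _ m.2) (inv_mem m.2)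
  refine ⟨m1, mem_centralizer_singleton_iff.2 ?_⟩
  have s := sq_of_conj h (isConj_iff.2 ⟨_, trl_eq ea nt m⟩)
  have s2 := ea _ m1
  generalize trl ea nt m = j at s s2
  calc j * t = t * (t * j * (t * j)) * j * (j * j) := by
        rw [s2, mul_one, mul_assoc t j, h.ttx, ← mul_assoc, mul_assoc (j * t), s2, mul_one]
    _ = _ := by rw [s, s2, mul_one, mul_one]

theorem trl_ι (h : Hy ι t) (nl : NL ι t) {j : G} (hj : j ∈ (trl ea nt).range) :
    ∃ l, j = ι l ∧ l * l = 1 ∧ IsConj t (t * ι l) := by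
  have m := trl_le ea nt h hj
  obtain ⟨m0, rfl⟩ := hj
  have c : IsConj t (t * trl ea nt m0) := isConj_iff.2 ⟨_, trl_eq ea nt m0⟩
  obtain ⟨l, e | e⟩ := h.cen _ (mem_centralizer_singleton_iff.1 m.2)
  · exact ⟨l, e, h.inj (by rw [map_mul, map_one, ← e, ea _ m.1]), e ▸ c⟩
  · rw [e, h.ttx] at c
    exact absurd c (nl l)

end

theorem mea : MeaStmt.{u} := by
  intro k G _ _ ι t h eac nl ep Γ M hc hM
  have ΓA : Γ ≤ A := by
    rcases hc with ⟨rfl, -⟩ | ⟨rfl, -⟩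
    exacts [Lam_le_A, le_rfl]
  have LΓ : Lam ≤ Γ := by
    rcases hc with ⟨rfl, -⟩ | ⟨rfl, -⟩
    exacts [le_rfl, Lam_le_A]
  have D : ∀ a ∈ A, IsConj t (t * ι a) → a ∈ Γ := fun a ha c => by
    rcases hc with ⟨rfl, c2⟩ | ⟨rfl, -⟩
    exacts [(c2 a ha).1 c, ha]
  have cM := h.MV_card ΓA hM
  have c8 : 8 ≤ Nat.card Γ := card_Lam ▸ card_le_of_le LΓ
  have ιM : ∀ a ∈ A, ι a ∈ M := fun a ha => hM.le (mem_map_of_mem ι ha)
  have tH : t ∈ normalizer (M : Set G) := mem_normalizer_fintype fun m hm => by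
    obtain ⟨γ, hγ, e⟩ := hM.tr m hm
    have : t * m * t⁻¹ = ι γ * m := by
      rw [h.tinv, ← h.ttx (ι γ), ← e]; group
    exact this ▸ mul_mem (ιM γ (ΓA hγ)) hm
  have key : ∀ y : G, y * t * y⁻¹ ∈ normalizer (M : Set G) → ∃ (ea : ∀ m ∈ cj y⁻¹ M, m * m = 1)
      (nt : ∀ m ∈ cj y⁻¹ M, t * m * t⁻¹ ∈ cj y⁻¹ M),
      Nat.card (trl ea nt).range = Nat.card Γ ∧
        ∃ l, ∀ z ∈ cj y⁻¹ M, z * t = t * z → ι l * z * (ι l)⁻¹ ∈ E3 ι t := fun y hy => by
    have ea : ∀ m ∈ cj y⁻¹ M, m * m = 1 := fun m hm => by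
      have := hM.ea _ (H67.mem_cj.1 hm)
      rw [inv_inv, conj_mul] at this
      simpa using this
    have nt : ∀ m ∈ cj y⁻¹ M, t * m * t⁻¹ ∈ cj y⁻¹ M := fun m hm => by
      have := (mem_normalizer_iff.1 hy _).1 (H67.mem_cj.1 hm)
      refine H67.mem_cj.2 ?_
      convert this using 1
      group
    have cd := trl_card ea nt
    rw [H67.card_cj, cM] at cd
    have tn : t ∉ cj y⁻¹ M := fun m => by
      have := (eac _ ea fun z hz => comm_of_sq ea hz m).1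
      rw [H67.card_cj, cM] at this
      omega
    have cI : ∀ z ∈ cj y⁻¹ M ⊓ centralizer {t}, z * t = t * z := fun z hz =>
      mem_centralizer_singleton_iff.1 hz.2
    obtain ⟨f1, f2⟩ := eac (cj y⁻¹ M ⊓ centralizer {t} ⊔ zpowers t) (fun z hz => by
      rcases mem_sup_t h cI hz with m | ⟨w, hw, rfl⟩
      · exact ea z m.1
      · rw [mul_assoc, ← mul_assoc t, ← cI w hw, mul_assoc, h.tt, mul_one, ea w hw.1])
      fun z hz => by
        rcases mem_sup_t h cI hz with m | ⟨w, hw, rfl⟩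
        · exact cI z m
        · rw [← mul_assoc, cI w hw]
    rw [card_sup_t h cI fun m => tn m.1] at f1 f2
    have c64 : Nat.card ↥(cj y⁻¹ M ⊓ centralizer {t}) = 64 := by
      rcases hc with ⟨rfl, c2⟩ | ⟨rfl, -⟩
      · have l8 := k.c.altp ((trl ea nt).range.comap ι) fun l hl => by
          obtain ⟨l', e, s, c⟩ := trl_ι ea nt h nl hl
          obtain rfl := h.inj e
          obtain ⟨p, hp⟩ := k.b.cls l s
          refine ⟨s, (alt_conj_iff l p).1 (mem_Lam_iff.1 ((c2 _ hp).1 ?_)).2⟩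
          exact c.trans (isConj_iff.2 ⟨_, h.conj_tl p l⟩)
        rw [← h.card_map, map_comap_eq_self fun j hj => by
          obtain ⟨l, e, -⟩ := trl_ι ea nt h nl hj
          exact ⟨l, e.symm⟩] at l8
        rw [card_Lam] at cd
        nlinarith
      · have := card_le_of_le (trl_le ea nt h)
        rw [card_A] at cd
        nlinarith
    obtain ⟨l, hl⟩ := f2 (by omega)
    exact ⟨ea, nt, by rw [c64] at cd; omega, l, fun z hz c =>
      hl z (mem_sup_left ⟨hz, mem_centralizer_singleton_iff.2 c⟩)⟩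
  refine ep (normalizer (M : Set G)) M le_normalizer
    (fun x hx c hc => (mem_normalizer_iff.1 hx c).1 hc) tH (fun l => ⟨fun hl => nor_A fun a ha => ?_,
      fun hl => mem_normalizer_fintype (hM.nP l hl)⟩) hM.le hM.ker (fun c hc ic => ?_) fun x hx _ => ?_
  · have m := (mem_normalizer_iff.1 hl _).1 (ιM a ha)
    rw [← map_inv, ← map_mul, ← map_mul] at m
    obtain ⟨b, hb, e⟩ := hM.ker _ m (h.ct _).symm
    exact h.inj e ▸ hb
  · have s := sq_of_conj h ic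
    have : c * t = t * c := by
      calc c * t = t * (t * c * (t * c)) * c := by
            rw [mul_assoc t c, h.ttx, mul_assoc, mul_assoc, hM.ea c hc, mul_one]
        _ = _ := by rw [s, mul_one]
    obtain ⟨a, ha, rfl⟩ := hM.ker c hc this
    exact hM.sur a (D a ha ic)
  obtain ⟨-, -, -, l, hl⟩ := key x hx
  have ex : x * (ι l)⁻¹ * t * (x * (ι l)⁻¹)⁻¹ = x * t * x⁻¹ := by
    rw [mul_assoc x, ← map_inv, ← h.ct]
    simp [mul_assoc]
  refine ⟨x * (ι l)⁻¹, ?_, ex⟩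
  obtain ⟨ea, nt, cJ, -⟩ := key (x * (ι l)⁻¹) (ex ▸ hx)
  have IE : ∀ z ∈ cj (x * (ι l)⁻¹)⁻¹ M, z * t = t * z → z ∈ E3 ι t := fun z hz c => by
    have := hl ((ι l)⁻¹ * z * ι l) (H67.mem_cj.2 (by
      convert H67.mem_cj.1 hz using 1
      group)) (by
        rw [mul_assoc, ← h.ct, ← mul_assoc, mul_assoc _ z, c, ← map_inv, ← mul_assoc, ← h.ct]
        simp only [mul_assoc])
    convert this using 1
    group
  have JΓ : (trl ea nt).range = Γ.map ι := by
    refine eq_of_le_of_card_ge (fun j hj => ?_) (by rw [cJ, h.card_map])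
    have m := trl_le ea nt h hj
    obtain ⟨l', rfl, -, c⟩ := trl_ι ea nt h nl hj
    obtain ⟨a, ha, e | e⟩ := h.mem_E3.1 (IE _ m.1 (mem_centralizer_singleton_iff.1 m.2))
    · obtain rfl := h.inj e
      exact mem_map_of_mem ι (D _ ha c)
    · exact absurd e (h.ne_t _ _)
  have two : ∀ m ∈ cj (x * (ι l)⁻¹)⁻¹ M, m ∈ M ∨ m * t ∈ M := fun m hm => by
    obtain ⟨γ, hγ, e⟩ := JΓ.le ⟨⟨m, hm⟩, rfl⟩
    obtain ⟨m0, hm0, e0⟩ := hM.sur γ hγ
    have e1 := trl_eq ea nt ⟨m, hm⟩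
    rw [← e, ← e0] at e1
    have := h.cen_E3 (x := m0⁻¹ * m) (by
      calc m0⁻¹ * m * t = m0⁻¹ * (m * t * m⁻¹) * m := by group
        _ = _ := by rw [e1]; group) fun a ha => by
      rw [mul_assoc, comm_of_sq ea hm (trl_le ea nt h (JΓ.ge (mem_map_of_mem ι (LΓ ha)))).1,
        ← mul_assoc, h.MV_comm hM (inv_mem hm0) (ιM a (Lam_le_A ha)), mul_assoc]
    obtain ⟨a, ha, e | e⟩ := h.mem_E3.1 this
    · exact Or.inl (by rw [inv_mul_eq_iff_eq_mul.1 e]; exact mul_mem hm0 (ιM a ha))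
    · refine Or.inr ?_
      rw [inv_mul_eq_iff_eq_mul.1 e, h.ct, mul_assoc, mul_assoc, h.tt, mul_one]
      exact mul_mem hm0 (ιM a ha)
  have le : cj (x * (ι l)⁻¹)⁻¹ M ≤ M := fun m1 hm1 => by
    by_contra n
    have h1 := (two m1 hm1).resolve_left n
    have z : ∀ m : cj (x * (ι l)⁻¹)⁻¹ M, (m : G) ∈ M → trl ea nt m = 1 := fun m hm => by
      have c := h.MV_comm hM hm h1
      rw [← mul_assoc, comm_of_sq ea m.2 hm1, mul_assoc, mul_assoc, mul_right_inj] at c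
      show t⁻¹ * (m * t * (m : G)⁻¹) = 1
      rw [c]; group
    obtain ⟨m2, e2⟩ := JΓ.ge (mem_map_of_mem ι (LΓ a12_Lam))
    obtain ⟨m3, e3⟩ := JΓ.ge (mem_map_of_mem ι (LΓ a13_Lam))
    have ne : ∀ c < 64, c ≠ 0 → ι (ac c) ≠ 1 := fun c hc c0 e =>
      c0 (ac_inj hc (by decide) (h.inj (by rw [e, ac_zero, map_one])))
    rw [a12_ac] at e2
    rw [a13_ac] at e3
    have n2 := (two _ m2.2).resolve_left fun m => ne 8 (by decide) (by decide) (e2 ▸ z m2 m)
    have n3 := (two _ m3.2).resolve_left fun m => ne 16 (by decide) (by decide) (e3 ▸ z m3 m)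
    have n4 : ((m2 * m3 : cj (x * (ι l)⁻¹)⁻¹ M) : G) ∈ M := by
      have := mul_mem n2 ((mem_normalizer_iff.1 tH _).1 n3)
      rwa [mul_assoc, mul_assoc, mul_assoc, h.ttx, mul_inv_cancel, mul_one] at this
    have := z _ n4
    rw [map_mul, e2, e3, ← map_mul, ac_mul (by decide) (by decide)] at this
    exact ne _ (by decide) (by decide) this
  exact inv_mem_iff.1 (H67.mem_normalizer_of_cj_le le)

end Cfsg.Agent.H92.S6
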