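import Cfsg.Agent.H63.AnDefs2

/-!
# AN-R2B: a square root of `t` in the centraliser of `L` commutes with no other conjugate of `t`
-/

set_option autoImplicit false
set_option linter.unusedSectionVars false

namespace Cfsg.Agent.H92.AnR2b

open Cfsg Cfsg.Agent.H63 Cfsg.Agent.H63.SL Cfsg.Agent.H63.AN Subgroup
open Cfsg.Agent.H7.AA
open Cfsg.Agent.H78 (c3 altOn symOn mem_altOn mem_symOn)
open Equiv (swap Perm swap_apply_def)
open Equiv.Perm (sign)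

universe u

section Perm

variable {α : Type} [Fintype α] [DecidableEq α]

theorem ex3 (F : Finset α) (h : F.card + 3 ≤ Fintype.card α) :
    ∃ b c d : α, b ≠ c ∧ b ≠ d ∧ c ≠ d ∧ b ∉ F ∧ c ∉ F ∧ d ∉ F := by
  have hc : 3 ≤ ((Finset.univ : Finset α) \ F).card := by
    rw [Finset.card_univ_sdiff]; omega
  obtain ⟨s, hs, hs3⟩ := Finset.exists_subset_card_eq hc
  obtain ⟨b, c, d, hbc, hbd, hcd, rfl⟩ := Finset.card_eq_three.1 hs3
  have hb := hs (show b ∈ ({b, c, d} : Finset α) by simp)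
  have hc := hs (show c ∈ ({b, c, d} : Finset α) by simp)
  have hd := hs (show d ∈ ({b, c, d} : Finset α) by simp)
  simp only [Finset.mem_sdiff, Finset.mem_univ, true_and] at hb hc hd
  exact ⟨b, c, d, hbc, hbd, hcd, hb, hc, hd⟩

theorem card_le4 (a b c d : α) : ({a, b, c, d} : Finset α).card ≤ 4 := Finset.card_le_four
theorem card_le5 (a b c d e : α) : ({a, b, c, d, e} : Finset α).card ≤ 5 :=
  (Finset.card_insert_le _ _).trans (Nat.succ_le_succ (card_le4 _ _ _ _))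
theorem card_le6 (a b c d e f : α) : ({a, b, c, d, e, f} : Finset α).card ≤ 6 :=
  (Finset.card_insert_le _ _).trans (Nat.succ_le_succ (card_le5 _ _ _ _ _))

theorem d2_sq {a b c d : α} (h : [a, b, c, d].Nodup) : d2 a b c d * d2 a b c d = 1 :=
  (d2_kpair h).aa

theorem d2_inv {a b c d : α} (h : [a, b, c, d].Nodup) : (d2 a b c d)⁻¹ = d2 a b c d :=
  inv_eq_of_mul_eq_one_right (d2_sq h)

theorem comm_d2 {σ : Perm α} {a b c d : α} (h : d2 (σ a) (σ b) (σ c) (σ d) = d2 a b c d) :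
    σ * d2 a b c d = d2 a b c d * σ := by
  rw [← d2_conj] at h
  exact mul_inv_eq_iff_eq_mul.1 h

theorem d2_swap {a b c d : α} (h : [a, b, c, d].Nodup) : d2 c d a b = d2 a b c d := by
  obtain ⟨h1, h2, h3, h4, h5, h6⟩ := nodup4.1 h
  ext x; simp only [d2_apply, swap_apply_def]; grind

theorem support_d2' {a b c d : α} (h : [a, b, c, d].Nodup) :
    (d2 a b c d).support = {a, b, c, d} := by
  obtain ⟨n1, n2, n3, n4, n5, n6⟩ := nodup4.1 h
  ext x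
  simp only [Equiv.Perm.mem_support, Finset.mem_insert, Finset.mem_singleton, d2_apply,
    swap_apply_def]
  grind

theorem card4 {a b c d : α} (h : [a, b, c, d].Nodup) : ({a, b, c, d} : Finset α).card = 4 := by
  simpa using List.toFinset_card_of_nodup h

/-- The hypothesis of the permutation argument, for double transpositions. -/
def Hyp (ρ : Perm α) (Q : Perm α → Prop) : Prop :=
  ∀ a b c d : α, [a, b, c, d].Nodup → ρ * ρ * d2 a b c d = d2 a b c d * (ρ * ρ) →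
    d2 (ρ a) (ρ b) (ρ c) (ρ d) * d2 a b c d = d2 a b c d * d2 (ρ a) (ρ b) (ρ c) (ρ d) →
    d2 (ρ a) (ρ b) (ρ c) (ρ d) * d2 a b c d ≠ 1 →
    d2 (ρ a) (ρ b) (ρ c) (ρ d) * d2 a b c d = ρ * ρ ∧ Q (ρ * ρ)

/-- `ρ` is the four-cycle through `x`. -/
structure Cyc4 (ρ : Perm α) (x : α) : Prop where
  nd : [x, ρ (ρ x), ρ x, ρ (ρ (ρ x))].Nodup
  r4 : ρ (ρ (ρ (ρ x))) = x
  fx : ∀ y, y ≠ x → y ≠ ρ (ρ x) → y ≠ ρ x → y ≠ ρ (ρ (ρ x)) → ρ y = y

theorem orb_nodup {ρ : Perm α} {x : α} (h4 : ∀ y, ρ (ρ (ρ (ρ y))) = y) (hx : ρ (ρ x) ≠ x) :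
    [x, ρ (ρ x), ρ x, ρ (ρ (ρ x))].Nodup := by
  have i := ρ.injective
  have := h4 x
  refine nodup4.2 ⟨hx.symm, fun e => hx ?_, fun e => hx ?_, fun e => hx ?_, fun e => hx ?_,
    fun e => hx ?_⟩
  · rw [← e, ← e]
  · have e1 : ρ x = x := by rw [e]; rw [this]; exact e
    rw [e1, e1]
  · rw [e]; exact i e
  · have e1 := i (i e); rw [← e1, ← e1]
  · exact (i e).symm

theorem step1 {ρ : Perm α} {Q : Perm α → Prop} (H : Hyp ρ Q) (h4 : ∀ y, ρ (ρ (ρ (ρ y))) = y)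
    {x : α} (hx : ρ (ρ x) ≠ x) (y : α) (y1 : y ≠ x) (y2 : y ≠ ρ (ρ x)) (y3 : y ≠ ρ x)
    (y4 : y ≠ ρ (ρ (ρ x))) : ρ (ρ y) = y := by
  by_contra hy
  have i := ρ.injective
  obtain ⟨a1, a2, a3, a4, a5, a6⟩ := nodup4.1 (orb_nodup h4 hx)
  obtain ⟨b1, b2, b3, b4, b5, b6⟩ := nodup4.1 (orb_nodup h4 hy)
  have hx4 := h4 x
  have hy4 := h4 y
  have c1 : ρ y ≠ x := fun e => y4 (by rw [← e, hy4])
  have c2 : ρ y ≠ ρ x := i.ne y1
  have c3 : ρ y ≠ ρ (ρ x) := i.ne y3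
  have c4 : ρ y ≠ ρ (ρ (ρ x)) := i.ne y2
  have d1 : ρ (ρ y) ≠ x := fun e => y2 (by rw [← e, hy4])
  have d2' : ρ (ρ y) ≠ ρ x := i.ne c1
  have d3 : ρ (ρ y) ≠ ρ (ρ x) := i.ne c2
  have d4 : ρ (ρ y) ≠ ρ (ρ (ρ x)) := i.ne c3
  have e1 : ρ (ρ (ρ y)) ≠ x := fun e => y3 (by rw [← e, hy4])
  have e2 : ρ (ρ (ρ y)) ≠ ρ x := i.ne d1
  have e3 : ρ (ρ (ρ y)) ≠ ρ (ρ x) := i.ne d2'
  have e4 : ρ (ρ (ρ y)) ≠ ρ (ρ (ρ x)) := i.ne d3
  have hn : [x, y, ρ (ρ x), ρ (ρ y)].Nodup :=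
    nodup4.2 ⟨y1.symm, a1, d1.symm, y2, b1, d3.symm⟩
  have k : (d2 (ρ x) (ρ y) (ρ (ρ (ρ x))) (ρ (ρ (ρ y))) * d2 x y (ρ (ρ x)) (ρ (ρ y))) x = y := by
    simp only [Equiv.Perm.mul_apply, d2_apply, swap_apply_def]; grind
  have := (H x y (ρ (ρ x)) (ρ (ρ y)) hn (comm_d2 (by
    simp only [Equiv.Perm.mul_apply, hx4, hy4]; exact d2_swap hn)) (comm_d2 (by
      congr 1 <;> (simp only [d2_apply, swap_apply_def]; grind)))
    (fun e => y1 (by rw [← k, e]; rfl))).1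
  rw [this] at k
  exact y2 k.symm

theorem step2 (h9 : 9 ≤ Fintype.card α) {ρ : Perm α} {Q : Perm α → Prop} (H : Hyp ρ Q)
    (h4 : ∀ y, ρ (ρ (ρ (ρ y))) = y) {x : α} (hx : ρ (ρ x) ≠ x) : Cyc4 ρ x := by
  refine ⟨orb_nodup h4 hx, h4 x, fun y y1 y2 y3 y4 => ?_⟩
  by_contra hy
  have i := ρ.injective
  obtain ⟨a1, a2, a3, a4, a5, a6⟩ := nodup4.1 (orb_nodup h4 hx)
  have hx4 := h4 x
  have out : ∀ y, y ≠ x → y ≠ ρ (ρ x) → y ≠ ρ x → y ≠ ρ (ρ (ρ x)) →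
      ρ y ≠ x ∧ ρ y ≠ ρ (ρ x) ∧ ρ y ≠ ρ x ∧ ρ y ≠ ρ (ρ (ρ x)) := fun y y1 y2 y3 y4 =>
    ⟨fun e => y4 (by rw [← e, h4 y]), i.ne y3, i.ne y1, i.ne y2⟩
  have hyy := step1 H h4 hx y y1 y2 y3 y4
  obtain ⟨z1, z2, z3, z4⟩ := out y y1 y2 y3 y4
  by_cases hw : ∃ w, w ≠ x ∧ w ≠ ρ (ρ x) ∧ w ≠ ρ x ∧ w ≠ ρ (ρ (ρ x)) ∧ w ≠ y ∧ w ≠ ρ y ∧ ρ w ≠ w
  · obtain ⟨w, w1, w2, w3, w4, w5, w6, w7⟩ := hw
    have hww := step1 H h4 hx w w1 w2 w3 w4
    obtain ⟨v1, v2, v3, v4⟩ := out w w1 w2 w3 w4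
    have v5 : ρ w ≠ y := fun e => w6 (by rw [← e, hww])
    have v6 : ρ w ≠ ρ y := i.ne w5
    have hn : [x, ρ (ρ x), y, w].Nodup :=
      nodup4.2 ⟨a1, y1.symm, w1.symm, y2.symm, w2.symm, w5.symm⟩
    have k : (d2 (ρ x) (ρ (ρ (ρ x))) (ρ y) (ρ w) * d2 x (ρ (ρ x)) y w) y = w := by
      simp only [Equiv.Perm.mul_apply, d2_apply, swap_apply_def]; grind
    have := (H x (ρ (ρ x)) y w hn (comm_d2 (by
      simp only [Equiv.Perm.mul_apply, hx4, hyy, hww, d2, Equiv.swap_comm x])) (comm_d2 (by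
        congr 1 <;> (simp only [d2_apply, swap_apply_def]; grind)))
      (fun e => w5 (by rw [← k, e]; rfl))).1
    rw [this] at k
    exact w5 (k.symm.trans hyy)
  · push Not at hw
    obtain ⟨w, v, -, hwv, -, -, hw', hv', -⟩ := ex3 {x, ρ (ρ x), ρ x, ρ (ρ (ρ x)), y, ρ y}
      (by have := card_le6 x (ρ (ρ x)) (ρ x) (ρ (ρ (ρ x))) y (ρ y); omega)
    simp only [Finset.mem_insert, Finset.mem_singleton, not_or] at hw' hv'
    obtain ⟨w1, w2, w3, w4, w5, w6⟩ := hw'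
    obtain ⟨v1, v2, v3, v4, v5, v6⟩ := hv'
    have fw := hw w w1 w2 w3 w4 w5 w6
    have fv := hw v v1 v2 v3 v4 v5 v6
    have hn : [y, w, ρ y, v].Nodup :=
      nodup4.2 ⟨Ne.symm w5, Ne.symm hy, Ne.symm v5, w6, hwv, Ne.symm v6⟩
    have k : (d2 (ρ y) (ρ w) (ρ (ρ y)) (ρ v) * d2 y w (ρ y) v) y = ρ y := by
      simp only [Equiv.Perm.mul_apply, d2_apply, swap_apply_def, fw, fv, hyy]; grind
    have := (H y w (ρ y) v hn (comm_d2 (by
      simp only [Equiv.Perm.mul_apply, hyy, fw, fv])) (by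
        rw [fw, fv, hyy]
        ext e
        simp only [Equiv.Perm.mul_apply, d2_apply, swap_apply_def]; grind)
      (fun e => hy (by rw [← k, e]; rfl))).1
    rw [this] at k
    exact hy (k.symm.trans hyy)

theorem Cyc4.sq {ρ : Perm α} {x : α} (h : Cyc4 ρ x) :
    ρ * ρ = d2 x (ρ (ρ x)) (ρ x) (ρ (ρ (ρ x))) := by
  obtain ⟨a1, a2, a3, a4, a5, a6⟩ := nodup4.1 h.nd
  have r4 := h.r4
  ext y
  have := h.fx y
  simp only [Equiv.Perm.mul_apply, d2_apply, swap_apply_def]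
  grind

theorem step3 (h9 : 9 ≤ Fintype.card α) {ρ : Perm α} {Q : Perm α → Prop} (H : Hyp ρ Q)
    {x : α} (h : Cyc4 ρ x) : Q (ρ * ρ) := by
  obtain ⟨a1, a2, a3, a4, a5, a6⟩ := nodup4.1 h.nd
  have r4 := h.r4
  obtain ⟨w, v, -, hwv, -, -, hw', hv', -⟩ := ex3 {x, ρ (ρ x), ρ x, ρ (ρ (ρ x))}
    (by have := card_le4 x (ρ (ρ x)) (ρ x) (ρ (ρ (ρ x))); omega)
  simp only [Finset.mem_insert, Finset.mem_singleton, not_or] at hw' hv'
  obtain ⟨w1, w2, w3, w4⟩ := hw'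
  obtain ⟨v1, v2, v3, v4⟩ := hv'
  have fw := h.fx w w1 w2 w3 w4
  have fv := h.fx v v1 v2 v3 v4
  have hn : [x, ρ (ρ x), w, v].Nodup :=
    nodup4.2 ⟨a1, Ne.symm w1, Ne.symm v1, Ne.symm w2, Ne.symm v2, hwv⟩
  have k : (d2 (ρ x) (ρ (ρ (ρ x))) (ρ w) (ρ v) * d2 x (ρ (ρ x)) w v) x = ρ (ρ x) := by
    simp only [Equiv.Perm.mul_apply, d2_apply, swap_apply_def, fw, fv]; grind
  exact (H x (ρ (ρ x)) w v hn (comm_d2 (by
    simp only [Equiv.Perm.mul_apply, r4, fw, fv, d2, Equiv.swap_comm x])) (comm_d2 (by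
      rw [fw, fv]
      have e1 : d2 (ρ x) (ρ (ρ (ρ x))) w v x = x := by
        simp only [d2_apply, swap_apply_def]; grind
      have e2 : d2 (ρ x) (ρ (ρ (ρ x))) w v (ρ (ρ x)) = ρ (ρ x) := by
        simp only [d2_apply, swap_apply_def]; grind
      have e3 : d2 (ρ x) (ρ (ρ (ρ x))) w v w = v := by
        simp only [d2_apply, swap_apply_def]; grind
      have e4 : d2 (ρ x) (ρ (ρ (ρ x))) w v v = w := by
        simp only [d2_apply, swap_apply_def]; grind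
      rw [e1, e2, e3, e4, d2, d2, Equiv.swap_comm v]))
    (fun e => a1 (by rw [← k, e]; rfl))).2

/-- An involution commuting with the four-cycle and with the alternating group off it. -/
theorem Cyc4.cent (h9 : 9 ≤ Fintype.card α) {ρ : Perm α} {x : α} (h : Cyc4 ρ x) {σ : Perm α}
    (h2 : σ * σ = 1) (hc : σ * ρ = ρ * σ)
    (hA : ∀ τ ∈ altOn (Finset.univ \ (ρ * ρ).support), σ * τ = τ * σ) : σ = 1 ∨ σ = ρ * ρ := by
  obtain ⟨a1, a2, a3, a4, a5, a6⟩ := nodup4.1 h.nd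
  have r4 := h.r4
  rw [h.sq, support_d2' h.nd] at hA
  have fx : ∀ y, y ≠ x → y ≠ ρ (ρ x) → y ≠ ρ x → y ≠ ρ (ρ (ρ x)) → σ y = y := by
    intro y y1 y2 y3 y4
    obtain ⟨b, c, d, hbc, hbd, hcd, hb, hc, hd⟩ := ex3 {y, x, ρ (ρ x), ρ x, ρ (ρ (ρ x))}
      (by have := card_le5 y x (ρ (ρ x)) (ρ x) (ρ (ρ (ρ x))); omega)
    rw [Finset.mem_insert, not_or] at hb hc hd
    have hy : y ∈ Finset.univ \ ({x, ρ (ρ x), ρ x, ρ (ρ (ρ x))} : Finset α) := by
      simp [y1, y2, y3, y4]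
    have m : ∀ {e : α}, e ∉ ({x, ρ (ρ x), ρ x, ρ (ρ (ρ x))} : Finset α) →
        e ∈ Finset.univ \ ({x, ρ (ρ x), ρ x, ρ (ρ (ρ x))} : Finset α) := fun he =>
      Finset.mem_sdiff.2 ⟨Finset.mem_univ _, he⟩
    exact (fix_of_comm_c3 (nodup4.2 ⟨Ne.symm hb.1, Ne.symm hc.1, Ne.symm hd.1, hbc, hbd, hcd⟩)
      (hA _ (H78.c3_mem_altOn hy (m hb.2) (m hc.2) (Ne.symm hb.1) hbc))
      (hA _ (H78.c3_mem_altOn hy (m hb.2) (m hd.2) (Ne.symm hb.1) hbd))).1
  have cm : ∀ y, σ (ρ y) = ρ (σ y) := fun y => congrArg (· y) hc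
  have s2 : ∀ y, σ (σ y) = y := fun y => congrArg (· y) h2
  have c1 := cm x
  have c2 := cm (ρ x)
  have c3 := cm (ρ (ρ x))
  have s1 := s2 x
  have f1 := fx (σ x)
  have hx : σ x = x ∨ σ x = ρ (ρ x) := by
    by_contra hn
    push Not at hn
    by_cases g1 : σ x = ρ x
    · rw [g1] at s1 c1; exact a1 (s1.symm.trans c1)
    by_cases g3 : σ x = ρ (ρ (ρ x))
    · rw [c2, c1, g3, r4] at c3; rw [g3, c3] at s1; exact a1 s1.symm
    exact hn.1 ((f1 hn.1 hn.2 g1 g3).symm.trans s1)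
  rw [c1] at c2
  rw [c2] at c3
  have key : ∀ τ : Perm α, τ x = σ x → τ (ρ x) = ρ (σ x) → τ (ρ (ρ x)) = ρ (ρ (σ x)) →
      τ (ρ (ρ (ρ x))) = ρ (ρ (ρ (σ x))) →
      (∀ y, y ≠ x → y ≠ ρ (ρ x) → y ≠ ρ x → y ≠ ρ (ρ (ρ x)) → τ y = y) → σ = τ := by
    intro τ t0 t1 t2 t3 t4
    ext y
    by_cases y1 : y = x
    · rw [y1, t0]
    by_cases y2 : y = ρ (ρ x)
    · rw [y2, t2, c2]
    by_cases y3 : y = ρ x
    · rw [y3, t1, c1]
    by_cases y4 : y = ρ (ρ (ρ x))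
    · rw [y4, t3, c3]
    rw [fx y y1 y2 y3 y4, t4 y y1 y2 y3 y4]
  rcases hx with hx | hx
  · left
    exact key 1 hx.symm (by rw [hx]; rfl) (by rw [hx]; rfl) (by rw [hx]; rfl) fun _ _ _ _ _ => rfl
  · right
    exact key (ρ * ρ) hx.symm (by rw [hx]; rfl) (by rw [hx]; rfl) (by rw [hx]; rfl)
      fun y y1 y2 y3 y4 => by
        rw [Equiv.Perm.mul_apply, h.fx y y1 y2 y3 y4, h.fx y y1 y2 y3 y4]

theorem simple_altOn {S : Finset α} (h5 : 5 ≤ S.card) : IsSimpleGroup (altOn S) := by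
  have e : altOn S = (alternatingGroup S).map (Equiv.Perm.ofSubtype : Perm S →* Perm α) := by
    rw [alternatingGroup.map_ofSubtype]
    ext σ
    rw [Subgroup.mem_inf, Equiv.Perm.mem_range_ofSubtype_iff, altOn, Subgroup.mem_inf,
      H78.mem_symOn_iff_support]
    rfl
  rw [e]
  have : IsSimpleGroup (alternatingGroup S) := alternatingGroup.isSimpleGroup (by simpa using h5)
  exact (equivMapOfInjective _ _ Equiv.Perm.ofSubtype_injective).symm.isSimpleGroup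

end Perm

section Group

variable {G : Type u} [Group G] {α : Type} [Fintype α] [DecidableEq α]

/-- The part of `Pre` that is used. -/
structure Pr (ψ : alternatingGroup α →* G) (t : G) : Prop where
  nine : 9 ≤ Fintype.card α
  inj : Function.Injective ψ
  t2 : t * t = 1
  t1 : t ≠ 1
  tK : t ∈ KA ψ
  cN : ∀ g, Commute g t → g ∈ NA ψ
  uq : ∀ k ∈ KA ψ, k * k = 1 → Commute k t → k = 1 ∨ k = t

theorem pr_of {ψ : alternatingGroup α →* G} {t : G} (h : Pre ψ t) : Pr ψ t := by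
  refine ⟨h.nine, h.inj, h.t2, h.t1, h.tK, h.cN, fun k hk h2 hc => ?_⟩
  by_contra hn
  push Not at hn
  have kp : H29.KPair k t := ⟨hn.1, h.t1, hn.2, h2, h.t2, hc⟩
  have hcy := h.cyc (H29.klein k t) (H29.klein_le_iff.2 ⟨hk, h.tK⟩)
    (IsPGroup.of_card (n := 2) (by rw [kp.card]; rfl))
  have := kp.isKleinFour
  exact IsKleinFour.not_isCyclic hcy

theorem Pr.cj {ψ : alternatingGroup α →* G} {t : G} (h : Pr ψ t) (g : G) :
    Pr (cj g ψ) (g * t * g⁻¹) where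
  nine := h.nine
  inj := (MulAut.conj g).injective.comp h.inj
  t2 := by rw [show g * t * g⁻¹ * (g * t * g⁻¹) = g * (t * t) * g⁻¹ by group, h.t2]; group
  t1 e := h.t1 (by simpa using e)
  tK := mem_KA_cj.2 (by simpa [mul_assoc] using h.tK)
  cN x hx := mem_NA_cj.2 (h.cN _ (by
    have : x * (g * t * g⁻¹) = g * t * g⁻¹ * x := hx
    show g⁻¹ * x * g * t = t * (g⁻¹ * x * g)
    calc g⁻¹ * x * g * t = g⁻¹ * (x * (g * t * g⁻¹)) * g := by group
      _ = _ := by rw [this]; group))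
  uq k hk h2 hc := by
    have hc' : k * (g * t * g⁻¹) = g * t * g⁻¹ * k := hc
    rcases h.uq _ (mem_KA_cj.1 hk) (by
      rw [show g⁻¹ * k * g * (g⁻¹ * k * g) = g⁻¹ * (k * k) * g by group, h2]; group) (by
      show g⁻¹ * k * g * t = t * (g⁻¹ * k * g)
      calc g⁻¹ * k * g * t = g⁻¹ * (k * (g * t * g⁻¹)) * g := by group
        _ = _ := by rw [hc']; group) with e | e
    · left; rw [show k = g * (g⁻¹ * k * g) * g⁻¹ by group, e]; group
    · right; rw [← e]; group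

theorem core [Finite G] {ψ χ : alternatingGroup α →* G} {t d u : G} (h : Pr ψ t) (k : Pr χ d)
    (hu : u ∈ KA ψ) (uu : u * u = t) (dt : Commute d t) (ne : d ≠ t) (du : Commute d u) :
    ∃ ρ x, Acts χ u ρ ∧ Cyc4 ρ x ∧ t = ev χ (ρ * ρ) := by
  have h9 := h.nine
  have h5 : 5 ≤ Fintype.card α := by omega
  obtain ⟨ρ, hρ⟩ := exists_acts h5 (by omega) k.inj (k.cN u du.symm)
  have ht : Acts χ t (ρ * ρ) := uu ▸ hρ.mul hρ
  have h4 : ρ * ρ * (ρ * ρ) = 1 := (ht.mul ht).uniq h5 k.inj (by rw [h.t2]; exact acts_one)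
  have h4' : ∀ y, ρ (ρ (ρ (ρ y))) = y := fun y => congrArg (· y) h4
  have hp : ρ * ρ ≠ 1 := fun e => by
    rw [e] at ht
    rcases k.uq t ht.KA h.t2 dt.symm with e | e
    · exact h.t1 e
    · exact ne e.symm
  obtain ⟨x, hx⟩ : ∃ x, ρ (ρ x) ≠ x := by
    by_contra hn
    push Not at hn
    exact hp (Equiv.ext hn)
  have ut : Commute u t := by rw [← uu]; exact (Commute.refl u).mul_right (Commute.refl u)
  have H : Hyp ρ fun p => t = ev χ p := by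
    intro a b c e hn h1 h2 h3
    obtain ⟨n1, -, -, -, -, n6⟩ := nodup4.1 hn
    have sa := sign_d2 n1 n6
    have hn' : [ρ a, ρ b, ρ c, ρ e].Nodup := by simpa using List.Nodup.map ρ.injective hn
    have sb : sign (d2 (ρ a) (ρ b) (ρ c) (ρ e)) = 1 :=
      sign_d2 (ρ.injective.ne n1) (ρ.injective.ne n6)
    have et : Commute (ev χ (d2 a b c e)) t := (ht.comm sa h1).symm
    have e2 : ev χ (d2 a b c e) * ev χ (d2 a b c e) = 1 := by
      rw [← ev_mul sa sa, d2_sq hn, ev_one]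
    have ei : (ev χ (d2 a b c e))⁻¹ = ev χ (d2 a b c e) := inv_eq_of_mul_eq_one_right e2
    have e3 : ev χ (d2 (ρ a) (ρ b) (ρ c) (ρ e) * d2 a b c e) =
        u * (ev χ (d2 a b c e) * u⁻¹ * (ev χ (d2 a b c e))⁻¹) := by
      rw [ev_mul sb sa, ← d2_conj, ← hρ _ sa, ei]; group
    have sc : sign (d2 (ρ a) (ρ b) (ρ c) (ρ e) * d2 a b c e) = 1 := by simp [sa, sb]
    have c2 : d2 (ρ a) (ρ b) (ρ c) (ρ e) * d2 a b c e *
        (d2 (ρ a) (ρ b) (ρ c) (ρ e) * d2 a b c e) = 1 := by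
      calc _ = d2 (ρ a) (ρ b) (ρ c) (ρ e) * (d2 a b c e * d2 (ρ a) (ρ b) (ρ c) (ρ e)) *
          d2 a b c e := by group
        _ = (d2 (ρ a) (ρ b) (ρ c) (ρ e) * d2 (ρ a) (ρ b) (ρ c) (ρ e)) *
          (d2 a b c e * d2 a b c e) := by rw [← h2]; group
        _ = 1 := by rw [d2_sq hn, d2_sq hn', one_mul]
    rcases h.uq (ev χ (d2 (ρ a) (ρ b) (ρ c) (ρ e) * d2 a b c e))
      (e3 ▸ mul_mem hu (NA_conj_KA (h.cN _ et) (inv_mem hu)))
      (by rw [← ev_mul sc sc, c2, ev_one])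
      (e3 ▸ ut.mul_left ((et.mul_left ut.inv_left).mul_left et.inv_left)) with e4 | e4
    · exact (h3 (ev_eq_one k.inj sc e4)).elim
    · have e5 := (acts_ev (ψ := χ) sc).uniq h5 k.inj (e4 ▸ ht)
      exact ⟨e5, by rw [← e5]; exact e4.symm⟩
  have hc := step2 h9 H h4' hx
  exact ⟨ρ, x, hρ, hc, step3 h9 H hc⟩

theorem fin (nat : NatStmt) [Finite G] {ψ χ : alternatingGroup α →* G} {t u : G} {a b c e : α}
    (hn : [a, b, c, e].Nodup) (h : Pr ψ t) (k : Pr χ (ev ψ (d2 a b c e)))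
    (hu : u ∈ KA ψ) (uu : u * u = t) : False := by
  have h9 := h.nine
  have h5 : 5 ≤ Fintype.card α := by omega
  have tL : t ∉ ψ.range := fun m => h.t1 (range_KA h5 h.inj m h.tK)
  obtain ⟨n1, n2, n3, n4, n5, n6⟩ := nodup4.1 hn
  have sw := sign_d2 n1 n6
  have sv := sign_d2 n2 n5
  obtain ⟨ρ, x, hρ, hc, ht⟩ := core h k hu uu (KA_ev h.tK _).symm
    (fun e => tL (e ▸ ev_mem _)) (KA_ev hu _).symm
  have sp : sign (ρ * ρ) = 1 := by simp
  have hta : Acts χ t (ρ * ρ) := uu ▸ hρ.mul hρ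
  let S : Finset α := Finset.univ \ {a, b, c, e}
  have cS : S.card + 4 = Fintype.card α := by
    have := card4 hn
    simp only [S, Finset.card_univ_sdiff, this]; omega
  have fxS : ∀ σ : altOn S, (σ : Perm α) a = a ∧ (σ : Perm α) b = b ∧ (σ : Perm α) c = c ∧
      (σ : Perm α) e = e := fun σ => by
    have := (mem_altOn.1 σ.2).1
    exact ⟨this _ (by simp [S]), this _ (by simp [S]), this _ (by simp [S]), this _ (by simp [S])⟩
  have sS : ∀ σ : altOn S, sign (σ : Perm α) = 1 := fun σ => (mem_altOn.1 σ.2).2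
  have cw : ∀ σ : altOn S, Commute (ev ψ σ) (ev ψ (d2 a b c e)) := fun σ =>
    ev_comm (sS σ) sw (comm_d2 (by
      obtain ⟨f1, f2, f3, f4⟩ := fxS σ; rw [f1, f2, f3, f4]))
  have cv : ∀ σ : altOn S, Commute (ev ψ σ) (ev ψ (d2 a c b e)) := fun σ =>
    ev_comm (sS σ) sv (comm_d2 (by
      obtain ⟨f1, f2, f3, f4⟩ := fxS σ; rw [f1, f2, f3, f4]))
  choose f hf using fun σ : altOn S => exists_acts h5 (by omega) k.inj (k.cN _ (cw σ))
  let φ : altOn S →* Perm α := MonoidHom.mk' f fun σ τ =>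
    (hf (σ * τ)).uniq h5 k.inj (by
      rw [Subgroup.coe_mul, ev_mul (sS σ) (sS τ)]; exact (hf σ).mul (hf τ))
  have hφ : ∀ σ : altOn S, Acts χ (ev ψ σ) (φ σ) := hf
  have hS5 : 5 ≤ S.card := by omega
  have inj : Function.Injective φ := by
    have := simple_altOn hS5
    rcases (MonoidHom.normal_ker φ).eq_bot_or_eq_top with e0 | e0
    · exact (MonoidHom.ker_eq_bot_iff φ).1 e0
    · exfalso
      obtain ⟨p, q, r, pq, pr, qr, hp, hq, hr⟩ := ex3 {a, b, c, e}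
        (by have := card_le4 a b c e; omega)
      obtain ⟨s, -, -, -, -, -, hs, -⟩ : ∃ s s' s'' : α, True ∧ True ∧ True ∧
          s ∉ ({p, q, r} ∪ {a, b, c, e} : Finset α) ∧ True := by
        have : ({p, q, r} ∪ {a, b, c, e} : Finset α).card < Fintype.card α := by
          have := Finset.card_union_le ({p, q, r} : Finset α) {a, b, c, e}
          have := card_le4 a b c e
          have : ({p, q, r} : Finset α).card ≤ 3 := Finset.card_le_three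
          omega
        obtain ⟨s, -, hs⟩ := Finset.exists_mem_notMem_of_card_lt_card
          (s := ({p, q, r} ∪ {a, b, c, e} : Finset α)) (t := Finset.univ) this
        exact ⟨s, s, s, trivial, trivial, trivial, hs, trivial⟩
      simp only [Finset.mem_union, Finset.mem_insert, Finset.mem_singleton, not_or] at hs hp hq hr
      have hn' : [p, q, r, s].Nodup :=
        nodup4.2 ⟨pq, pr, Ne.symm hs.1.1, qr, Ne.symm hs.1.2.1, Ne.symm hs.1.2.2⟩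
      have st := sign_d2 pq (Ne.symm hs.1.2.2 : r ≠ s)
      have hm : d2 p q r s ∈ altOn S := mem_altOn.2 ⟨fun y hy => by
        simp only [S, Finset.mem_sdiff, Finset.mem_univ, true_and, not_not, Finset.mem_insert,
          Finset.mem_singleton] at hy
        simp only [d2_apply, swap_apply_def]; grind, st⟩
      have h1 : φ ⟨_, hm⟩ = 1 := (MonoidHom.mem_ker).1 (e0 ▸ mem_top _)
      have h2 := hφ ⟨_, hm⟩
      rw [h1] at h2
      rcases k.uq _ h2.KA (by rw [← ev_mul st st, d2_sq hn', ev_one]) (cw ⟨_, hm⟩) with e1 | e1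
      · exact (d2_kpair hn').a1 (ev_eq_one h.inj st e1)
      · have := congrArg (· a) (ev_inj h.inj st sw e1)
        simp only [d2_apply, swap_apply_def] at this; grind
  have p2 : ρ * ρ * (ρ * ρ) = 1 := by rw [hc.sq]; exact d2_sq hc.nd
  have cq : (ρ * ρ).support.card = 4 := by rw [hc.sq, support_d2' hc.nd, card4 hc.nd]
  have rg := (nat α S Finset.univ φ (ρ * ρ) inj hS5 (by rw [Finset.card_univ]; omega)
    (fun σ => by rw [H78.symOn_univ]; exact mem_top _) (by rw [H78.symOn_univ]; exact mem_top _) p2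
    (fun σ => (hφ σ).comm_perm k.inj sp (by rw [← ht]; exact (KA_ev h.tK _).symm))).2.2
    (by rw [cq, Finset.card_univ, cS])
  have kp := ev_d2_kpair (ψ := ψ) h.inj hn
  obtain ⟨σ, hσ⟩ := exists_acts h5 (by omega) k.inj (k.cN (ev ψ (d2 a c b e)) kp.comm.symm)
  have cm : ∀ {y : G} {τ : Perm α}, Acts χ y τ → ev ψ (d2 a c b e) * y = y * ev ψ (d2 a c b e) →
      σ * τ = τ * σ := fun hy hc => (hσ.mul hy).uniq h5 k.inj (hc ▸ hy.mul hσ)
  rcases hc.cent h9 ((hσ.mul hσ).uniq h5 k.inj (by rw [kp.bb]; exact acts_one))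
    (cm hρ (KA_ev hu _).symm) (fun τ hτ => by
      obtain ⟨s, rfl⟩ := rg ▸ hτ
      exact cm (hφ s) (cv s).symm) with e0 | e0
  · rw [e0] at hσ
    rcases k.uq _ hσ.KA kp.bb kp.comm.symm with e1 | e1
    · exact kp.b1 e1
    · exact kp.ne e1.symm
  · rw [e0] at hσ
    have h1 := hσ.mul hta
    rw [p2] at h1
    have vt : Commute (ev ψ (d2 a c b e)) t := (KA_ev h.tK _).symm
    rcases k.uq _ h1.KA (by
      rw [show ev ψ (d2 a c b e) * t * (ev ψ (d2 a c b e) * t) =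
        ev ψ (d2 a c b e) * (t * ev ψ (d2 a c b e)) * t by group, ← vt.eq, ← mul_assoc, kp.bb,
        one_mul, h.t2])
      (Commute.mul_left kp.comm.symm (KA_ev h.tK _)) with e1 | e1
    · exact tL (by rw [eq_inv_of_mul_eq_one_right e1]; exact inv_mem (ev_mem _))
    · exact tL (by rw [eq_inv_mul_of_mul_eq e1]; exact mul_mem (inv_mem (ev_mem _)) (ev_mem _))

end Group

theorem r2b (nat : NatStmt) : R2bStmt.{u} := by
  intro G _ _ α _ _ ψ t hP u hu uu d hd dt ne du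
  have h := pr_of hP
  obtain ⟨g, rfl⟩ := isConj_iff.1 hd
  obtain ⟨ρ, x, -, hc, ht⟩ := core h (h.cj g) hu uu dt ne du
  rw [ev_cj, hc.sq] at ht
  have k := h.cj g⁻¹
  rw [show g⁻¹ * t * g⁻¹⁻¹ = ev ψ (d2 x (ρ (ρ x)) (ρ x) (ρ (ρ (ρ x)))) by rw [ht]; group] at k
  exact fin nat hc.nd h k hu uu

end Cfsg.Agent.H92.AnR2b
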