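import Cfsg.Agent.H21.DSDefs
import Cfsg.Agent.H22.Triple

/-!
Project DS, piece TRI: multiplication by an extension is a perfect isometry.
-/

set_option autoImplicit false

namespace Cfsg.Agent.H92.DsTri

open Cfsg.Agent.H17 Cfsg.Agent.H19 Cfsg.Agent.H22 Cfsg.Agent.H21.DS

universe u

section Cent

variable {Γ G : Type*} [Group Γ] [Group G] [Finite Γ]

theorem card_Cg_dvd_up (π : Γ →* G) (hπ : Function.Surjective π)
    (hZ : π.ker ≤ Subgroup.center Γ) (x : Γ) :
    Nat.card (Cg (π x)) ∣ Nat.card (Cg x) * Nat.card π.ker := by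
  have hm : ∀ d : (Cg (π x)).comap π, (d : Γ) * x * (d : Γ)⁻¹ * x⁻¹ ∈ π.ker := fun d => by
    have h : π d * π x = π x * π d := mem_Cg.1 d.2
    rw [MonoidHom.mem_ker, map_mul, map_mul, map_mul, map_inv, map_inv, h]
    group
  let δ : (Cg (π x)).comap π →* π.ker := MonoidHom.mk' (fun d => ⟨_, hm d⟩) fun d e => by
    apply Subtype.ext
    have h1 := Subgroup.mem_center_iff.1 (hZ (hm e))
    change (d : Γ) * e * x * ((d : Γ) * e)⁻¹ * x⁻¹ =
      (d : Γ) * x * (d : Γ)⁻¹ * x⁻¹ * ((e : Γ) * x * (e : Γ)⁻¹ * x⁻¹)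
    rw [h1]
    calc (d : Γ) * e * x * ((d : Γ) * e)⁻¹ * x⁻¹
        = d * ((e : Γ) * x * (e : Γ)⁻¹ * x⁻¹) * (x * (d : Γ)⁻¹ * x⁻¹) := by group
      _ = _ := by rw [h1]; group
  have h1 : Nat.card (Cg (π x)) ∣ Nat.card ((Cg (π x)).comap π) := by
    conv_lhs => rw [← Subgroup.map_comap_eq_self_of_surjective hπ (Cg (π x))]
    exact Subgroup.card_map_dvd _ _
  have h2 : Nat.card δ.ker ∣ Nat.card (Cg x) := by
    rw [← Subgroup.card_map_of_injective (Subgroup.subtype_injective _)]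
    refine Subgroup.card_dvd_of_le ?_
    rintro _ ⟨d, hd, rfl⟩
    have h : (d : Γ) * x * (d : Γ)⁻¹ * x⁻¹ = 1 := congrArg Subtype.val hd
    rw [mem_Cg, Subgroup.coe_subtype]
    rw [mul_inv_eq_one, mul_inv_eq_iff_eq_mul] at h
    exact h
  refine h1.trans ?_
  rw [← δ.ker.card_mul_index, Subgroup.index_ker]
  exact mul_dvd_mul h2 (Subgroup.card_subgroup_dvd_card _)

theorem card_Cg_dvd_down (q : Γ →* G) (x : Γ) :
    Nat.card (Cg x) ∣ Nat.card q.ker * Nat.card (Cg (q x)) := by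
  rw [← (q.comp (Cg x).subtype).ker.card_mul_index, Subgroup.index_ker]
  refine mul_dvd_mul ?_ (Subgroup.card_dvd_of_le ?_)
  · rw [← Subgroup.card_map_of_injective (Subgroup.subtype_injective _)]
    refine Subgroup.card_dvd_of_le ?_
    rintro _ ⟨d, hd, rfl⟩
    exact hd
  · rintro _ ⟨d, rfl⟩
    rw [mem_Cg, MonoidHom.comp_apply, ← map_mul, ← map_mul, Subgroup.coe_subtype, mem_Cg.1 d.2]

end Cent

theorem lamClosed {p : ℕ} {M : Ideal AlgInt} (hM : IsPModular p M) {Q : Type u} [Group Q]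
    [Finite Q] {Z : Subgroup Q} (hZ : Z ≤ Subgroup.center Q) (hp : ¬ p ∣ Nat.card Z)
    {β β' : IrrCharacter Q} (h : lam M β = lam M β') {z : Q} (hz : z ∈ Z) :
    β'.1 z * β.1 1 = β.1 z * β'.1 1 := by
  have : Z.Normal := ⟨fun n hn g => by
    rw [Subgroup.mem_center_iff.1 (hZ hn) g, mul_inv_cancel_right]; exact hn⟩
  have := Fintype.ofFinite Z
  obtain ⟨θ, hθ⟩ := exists_under Z β
  have hθ' := over_of_lam_eq_of_not_dvd hM hp h hθ
  have e := res_eq_smul_of_invariant Z hθ fun g => cjIrr_of_le_center hZ g θ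
  have e' := res_eq_smul_of_invariant Z hθ' fun g => cjIrr_of_le_center hZ g θ
  have a1 : β.1 z = _ := e ⟨z, hz⟩
  have a2 : β.1 1 = _ := e 1
  have a3 : β'.1 z = _ := e' ⟨z, hz⟩
  have a4 : β'.1 1 = _ := e' 1
  rw [a1, a2, a3, a4]
  ring

theorem tri : TriStmt.{u} := by
  intro p _ M hM G Γ Q _ _ _ _ π q hπ hq hZ hpZ hpN χ hχ
  classical
  have : Finite G := Finite.of_surjective π hπ
  have : Finite Q := Finite.of_surjective q hq
  have := Fintype.ofFinite q.ker
  set c : Set (IrrCharacter Q) := {β | ∀ z ∈ π.ker, β.1 (q z) * χ.1 z = β.1 1 * χ.1 1} with hc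
  have hin : ∀ β : IrrCharacter Q, IsIrrCharacter Γ fun x => β.1 (q x) := fun β =>
    H11.isIrrCharacter_comp_of_surjective β.2 q hq
  have hir : ∀ β : IrrCharacter Q, IsIrrCharacter Γ ((fun x => β.1 (q x)) * χ.1) := fun β =>
    H14.gallagher_isIrr q.ker χ.2 hχ (hin β) (H11.ker_le_charKer_comp q β.1)
  have hex : ∀ β : IrrCharacter Q, ∃ ξ : IrrCharacter G,
      β ∈ c → ∀ x, ξ.1 (π x) = β.1 (q x) * χ.1 x := fun β => by
    by_cases h : β ∈ c
    · obtain ⟨ξ, h1, h2⟩ := H11.exists_irr_lift_of_surjective (hir β) π hπ fun z hz => by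
        rw [H11.mem_charKer_irr_iff (hir β), Pi.mul_apply, Pi.mul_apply, map_one]
        exact h z hz
      exact ⟨⟨ξ, h1⟩, fun _ => h2⟩
    · exact ⟨triv G, fun h' => absurd h' h⟩
  choose I hI using hex
  have hcl : LamClosed M c := fun β hβ β' h z hz => by
    have e := lamClosed hM (Z := π.ker.map q) (by
      rintro _ ⟨y, hy, rfl⟩
      rw [Subgroup.mem_center_iff]
      intro g
      obtain ⟨g, rfl⟩ := hq g
      rw [← map_mul, ← map_mul, Subgroup.mem_center_iff.1 (hZ hy) g])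
      (fun h' => hpZ (h'.trans (Subgroup.card_map_dvd _ _))) h (Subgroup.mem_map_of_mem q hz)
    refine mul_right_cancel₀ (H11.irr_apply_one_ne_zero β.2) ?_
    linear_combination χ.1 z * e + β'.1 1 * hβ z hz
  have hker : ∀ x y, signedBijectionKernel c I (fun _ => 1) (π x) y =
      χ.1 x * ∑ᶠ β ∈ c, β.1 (q x) * β.1 y := fun x y => by
    rw [signedBijectionKernel, mul_finsum_mem' _ _ (Set.toFinite c)]
    exact finsum_mem_congr rfl fun β hβ => by rw [hI β hβ]; push_cast; ring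
  have alg : ∀ x y, IsAlgebraic ℚ (signedBijectionKernel c I (fun _ => 1) x y) := fun x y =>
    isAlgebraic_finsum_mem (Set.toFinite c) fun ψ _ =>
      ((isAlgebraic_intCast' _).mul (H17.irr_isAlgebraic _ _)).mul (H17.irr_isAlgebraic _ _)
  refine ⟨I, fun _ => 1, ⟨fun β hβ => ?_, fun β hβ β' hβ' h => ?_, fun ξ hξ => ?_⟩,
    fun _ _ => Or.inl rfl, fun g y => ?_⟩
  · rw [Set.mem_setOf_eq, over_iff]
    have : (fun n : q.ker => (I β).1 (π n)) = β.1 1 • fun n : q.ker => χ.1 n := by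
      ext n
      rw [hI β hβ, show q n = 1 from n.2]; rfl
    rw [this, H11.classInner_smul_left, H11.classInner_irr_self hχ, mul_one]
    exact H11.irr_apply_one_ne_zero β.2
  · have := H14.gallagher_inj q.ker χ.2 hχ (hin β) (hin β') (H11.ker_le_charKer_comp q β.1)
      (H11.ker_le_charKer_comp q β'.1) (funext fun x => by
        rw [Pi.mul_apply, Pi.mul_apply, ← hI β hβ, ← hI β' hβ', h])
    refine Subtype.ext (funext fun y => ?_)
    obtain ⟨y, rfl⟩ := hq y
    exact congrFun this y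
  · rw [Set.mem_setOf_eq, over_iff] at hξ
    obtain ⟨β₀, h1, h2, h3⟩ := H14.gallagher_surj q.ker χ.2 hχ
      (H11.isIrrCharacter_comp_of_surjective ξ.2 π hπ) hξ
    obtain ⟨β, h4, h5⟩ := H11.exists_irr_lift_of_surjective h1 q hq h2
    have h6 : ∀ x, β (q x) * χ.1 x = ξ.1 (π x) := fun x => by
      rw [h5]; exact congrFun h3 x
    have hβ : (⟨β, h4⟩ : IrrCharacter Q) ∈ c := fun z hz => by
      have := h6 1
      rw [map_one, map_one] at this
      exact (h6 z).trans (by rw [show π z = 1 from hz, this])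
    refine ⟨_, hβ, Subtype.ext (funext fun g => ?_)⟩
    obtain ⟨g, rfl⟩ := hπ g
    rw [hI _ hβ, h6]
  · obtain ⟨x, rfl⟩ := hπ g
    refine ⟨?_, ?_, ?_⟩
    · rw [memLocalRing_iff_of_alg hM.2.1 (isAlgebraic_div (alg _ y) (isAlgebraic_natCast' _)), hker]
      obtain ⟨t, ht⟩ := (card_Cg_dvd_up π hπ hZ x).trans
        (mul_dvd_mul_right (card_Cg_dvd_down q x) _)
      have h1 := H16.finsum_mul_div_mem hcl y (q x)
      rw [finsum_mem_congr rfl fun _ _ => mul_comm _ _] at h1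
      have h2 : ¬ p ∣ Nat.card q.ker * Nat.card π.ker := fun h =>
        ((Nat.Prime.dvd_mul Fact.out).1 h).elim hpN hpZ
      have h3 := div_mem_Vr (mul_mem (mul_mem (H17.irr_mem_Vr χ x) h1) (natCast_mem_Vr (M := M) t))
        ((val_natCast_eq_one_iff hM _).2 h2)
      convert h3 using 1
      have ht' : (Nat.card q.ker : ℂ) * Nat.card (Cg (q x)) * Nat.card π.ker =
        Nat.card (Cg (π x)) * t := by exact_mod_cast ht
      have n1 : (Nat.card q.ker : ℂ) ≠ 0 := Nat.cast_ne_zero.2 Nat.card_pos.ne'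
      have n2 : (Nat.card π.ker : ℂ) ≠ 0 := Nat.cast_ne_zero.2 Nat.card_pos.ne'
      have n3 : (Nat.card (Cg (q x)) : ℂ) ≠ 0 := Nat.cast_ne_zero.2 Nat.card_pos.ne'
      have n4 : (Nat.card (Cg (π x)) : ℂ) ≠ 0 := Nat.cast_ne_zero.2 Nat.card_pos.ne'
      push_cast
      rw [div_eq_div_iff n4 (mul_ne_zero n1 n2)]
      field_simp
      linear_combination (χ.1 x * ∑ᶠ β ∈ c, β.1 (q x) * β.1 y) * ht'
    · rw [memLocalRing_iff_of_alg hM.2.1 (isAlgebraic_div (alg _ y) (isAlgebraic_natCast' _)), hker,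
        mul_div_assoc]
      exact mul_mem (H17.irr_mem_Vr χ x) (H16.finsum_mul_div_mem hcl _ _)
    · have e : p ∣ orderOf (π x) ↔ p ∣ orderOf (q x) := by
        rw [Triple.dvd_orderOf_iff_of_not_dvd_ker π hpZ, Triple.dvd_orderOf_iff_of_not_dvd_ker q hpN]
      rw [IsPRegular, IsPRegular, e, hker]
      by_cases hx : p ∣ orderOf (q x) <;> by_cases hy : p ∣ orderOf y
      · exact Or.inl (by simp [hx, hy])
      · have := H20.weak_block_orth hM hcl hy (y := (q x)⁻¹) (by rwa [orderOf_inv])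
        rw [inv_inv, finsum_mem_congr rfl fun _ _ => mul_comm _ _] at this
        exact Or.inr (by rw [this, mul_zero])
      · have := H20.weak_block_orth hM hcl hx (y := y⁻¹) (by rwa [orderOf_inv])
        rw [inv_inv] at this
        exact Or.inr (by rw [this, mul_zero])
      · exact Or.inl (by simp [hx, hy])

end Cfsg.Agent.H92.DsTri
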