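import Cfsg.Agent.H92.LpTb3K

/-! Project LP, piece TB3: large elementary abelian subgroups of `T / Q`. -/

set_option autoImplicit false

namespace Cfsg.Agent.H92.LpTb3

open Subgroup Matrix Cfsg.Agent.H17.LP

/-- the code of an element of `T` modulo `Q` -/
def tc (n : N0) : ℕ := pk (n.g.1 0 1).val (n.g.1 2 3).val (n.g.1 2 4).val (n.g.1 3 4).val
  (n.a 2 3).val (n.a 2 4).val (n.a 3 4).val

/-- the code of a row of an element of `Q` -/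
def rc (n : N0) (i : Fin 5) : ℕ := pk (n.g.1 i 2).val (n.g.1 i 3).val (n.g.1 i 4).val
  (n.a i 2).val (n.a i 3).val (n.a i 4).val (0 : F).val

theorem bt_pk : ∀ a b c d e f g : F,
    bt (pk a.val b.val c.val d.val e.val f.val g.val) 0 = a.val ∧
    bt (pk a.val b.val c.val d.val e.val f.val g.val) 1 = b.val ∧
    bt (pk a.val b.val c.val d.val e.val f.val g.val) 2 = c.val ∧
    bt (pk a.val b.val c.val d.val e.val f.val g.val) 3 = d.val ∧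
    bt (pk a.val b.val c.val d.val e.val f.val g.val) 4 = e.val ∧
    bt (pk a.val b.val c.val d.val e.val f.val g.val) 5 = f.val ∧
    bt (pk a.val b.val c.val d.val e.val f.val g.val) 6 = g.val := by decide +kernel

theorem pk_lt : ∀ a b c d e f g : F, pk a.val b.val c.val d.val e.val f.val g.val < 128 := by
  decide +kernel

theorem pk_lt' : ∀ a b c d e f : F, pk a.val b.val c.val d.val e.val f.val (0 : F).val < 64 := by
  decide +kernel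

set_option synthInstance.maxSize 1000 in
theorem pk_zero : ∀ a b c d e f g : F, pk a.val b.val c.val d.val e.val f.val g.val = 0 →
    a = 0 ∧ b = 0 ∧ c = 0 ∧ d = 0 ∧ e = 0 ∧ f = 0 ∧ g = 0 := by decide +kernel

theorem pk_five : ∀ a b c d e f g : F,
    Nat.land (pk a.val b.val c.val d.val e.val f.val g.val) 15 = 0 →
    32 ≤ pk a.val b.val c.val d.val e.val f.val g.val →
    a = 0 ∧ b = 0 ∧ c = 0 ∧ d = 0 ∧ ¬ (f = 0 ∧ g = 0) := by decide +kernel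

theorem v_add : ∀ a b : F, Nat.xor a.val b.val = (a + b).val := by decide
theorem v_mul : ∀ a b : F, Nat.land a.val b.val = (a * b).val := by decide
theorem v_eq : ∀ a b : F, Nat.beq a.val b.val = true ↔ a = b := by decide
theorem v_eq0 : ∀ a : F, Nat.beq a.val 0 = true ↔ a = 0 := by decide
theorem v_inj : ∀ a b : F, a.val = b.val → a = b := by decide

/-- entries of an element of `T` -/
structure TE (s : N0) : Prop where
  g00 : s.g.1 0 0 = 1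
  g11 : s.g.1 1 1 = 1
  g22 : s.g.1 2 2 = 1
  g33 : s.g.1 3 3 = 1
  g44 : s.g.1 4 4 = 1
  g10 : s.g.1 1 0 = 0
  g20 : s.g.1 2 0 = 0
  g21 : s.g.1 2 1 = 0
  g30 : s.g.1 3 0 = 0
  g31 : s.g.1 3 1 = 0
  g32 : s.g.1 3 2 = 0
  g40 : s.g.1 4 0 = 0
  g41 : s.g.1 4 1 = 0
  g42 : s.g.1 4 2 = 0
  g43 : s.g.1 4 3 = 0

theorem te {s : N0} (hs : s ∈ T0) : TE s := by
  have h := (mem_Pat.1 hs).2
  exact ⟨h 0 0 rfl, h 1 1 rfl, h 2 2 rfl, h 3 3 rfl, h 4 4 rfl, h 1 0 rfl, h 2 0 rfl, h 2 1 rfl,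
    h 3 0 rfl, h 3 1 rfl, h 3 2 rfl, h 4 0 rfl, h 4 1 rfl, h 4 2 rfl, h 4 3 rfl⟩

/-- entries of an element of `Q` -/
structure QE (s : N0) : Prop extends TE s where
  g01 : s.g.1 0 1 = 0
  g23 : s.g.1 2 3 = 0
  g24 : s.g.1 2 4 = 0
  g34 : s.g.1 3 4 = 0
  a23 : s.a 2 3 = 0
  a24 : s.a 2 4 = 0
  a34 : s.a 3 4 = 0

theorem qe {s : N0} (hs : s ∈ Q0) : QE s := by
  have h := (mem_Pat.1 hs).2
  have k := (mem_Pat.1 hs).1
  exact ⟨⟨h 0 0 rfl, h 1 1 rfl, h 2 2 rfl, h 3 3 rfl, h 4 4 rfl, h 1 0 rfl, h 2 0 rfl, h 2 1 rfl,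
    h 3 0 rfl, h 3 1 rfl, h 3 2 rfl, h 4 0 rfl, h 4 1 rfl, h 4 2 rfl, h 4 3 rfl⟩,
    h 0 1 rfl, h 2 3 rfl, h 2 4 rfl, h 3 4 rfl, k 2 3 rfl, k 2 4 rfl, k 3 4 rfl⟩

theorem g_of {s : N0} (t : TE s) (h1 : s.g.1 0 1 = 0) (h2 : s.g.1 2 3 = 0) (h3 : s.g.1 2 4 = 0)
    (h4 : s.g.1 3 4 = 0) (i j : Fin 5)
    (h : (fun i j : ℕ => decide (i ≤ 2 ∧ 3 ≤ j)) (i + 1) (j + 1) = false) :
    s.g.1 i j = (1 : M5) i j := by
  obtain ⟨_, _, _, _, _, _, _, _, _, _, _, _, _, _, _⟩ := t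
  fin_cases i <;> fin_cases j <;> first | assumption | exact absurd h (by decide)

theorem mem_Q0 {s : N0} (h : QE s) : s ∈ Q0 := by
  refine mem_Pat.2 ⟨fun i j hij => ?_, g_of h.toTE h.g01 h.g23 h.g24 h.g34⟩
  have h1 := h.a23
  have h2 := h.a24
  have h3 := h.a34
  have h4 := (s.alt.symm 3 2).trans h1
  have h5 := (s.alt.symm 4 2).trans h2
  have h6 := (s.alt.symm 4 3).trans h3
  have h7 := s.alt.2 2
  have h8 := s.alt.2 3
  have h9 := s.alt.2 4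
  fin_cases i <;> fin_cases j <;> first | assumption | exact absurd hij (by decide)

theorem tc_mul {s t : N0} (hs : s ∈ T0) (ht : t ∈ T0) : tc (s * t) = tm (tc s) (tc t) := by
  have a := te hs
  have b := te ht
  have y := t.alt.symm
  obtain ⟨p0, p1, p2, p3, p4, p5, p6⟩ := bt_pk (s.g.1 0 1) (s.g.1 2 3) (s.g.1 2 4) (s.g.1 3 4)
    (s.a 2 3) (s.a 2 4) (s.a 3 4)
  obtain ⟨q0, q1, q2, q3, q4, q5, q6⟩ := bt_pk (t.g.1 0 1) (t.g.1 2 3) (t.g.1 2 4) (t.g.1 3 4)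
    (t.a 2 3) (t.a 2 4) (t.a 3 4)
  rw [tm]
  simp only [tc, p0, p1, p2, p3, p4, p5, p6, q0, q1, q2, q3, q4, q5, q6, v_add, v_mul]
  congr 2 <;>
  simp only [mul_a, mul_g, coe_mul', Matrix.add_apply, mul_apply, transpose_apply, Fin.sum_univ_five,
    a.g00, a.g11, a.g22, a.g33, a.g44, a.g10, a.g20, a.g21, a.g30, a.g31, a.g32, a.g40, a.g41, a.g42,
    a.g43, b.g00, b.g11, b.g22, b.g33, b.g44, b.g10, b.g20, b.g21, b.g30, b.g31, b.g32, b.g40, b.g41,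
    b.g42, b.g43, t.alt.2, y 4 3] <;> ring

theorem tc_Q {s : N0} (hs : s ∈ Q0) : tc s = 0 := by
  have a := qe hs
  rw [tc, a.g01, a.g23, a.g24, a.g34, a.a23, a.a24, a.a34]
  rfl

theorem Q_of {s : N0} (hs : s ∈ T0) (h : tc s = 0) : s ∈ Q0 := by
  obtain ⟨h1, h2, h3, h4, h5, h6, h7⟩ := pk_zero _ _ _ _ _ _ _ h
  exact mem_Q0 ⟨te hs, h1, h2, h3, h4, h5, h6, h7⟩

theorem card_le (q : QKStmt) {Y : Subgroup N0} (h : El Y) :
    Nat.card Y ≤ (tc '' (Y : Set N0)).ncard * 2 ^ 13 := by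
  have hq : Nat.card Q0 = 2 ^ 13 := q.2.2.2.2.2.2.2.1
  have hr : ∀ c : ↥(tc '' (Y : Set N0)), ∃ y ∈ Y, tc y = c := fun c => c.2
  choose r hr1 hr2 using hr
  have hm : ∀ y : Y, (r ⟨tc y, y, y.2, rfl⟩)⁻¹ * y ∈ Q0 := by
    intro y
    have h1 := h.2.1 (hr1 ⟨tc y, y, y.2, rfl⟩)
    have h2 := hr2 ⟨tc y, y, y.2, rfl⟩
    generalize r ⟨tc y, y, y.2, rfl⟩ = x at h1 h2
    refine Q_of (mul_mem (inv_mem h1) (h.2.1 y.2)) ?_
    rw [tc_mul (inv_mem h1) (h.2.1 y.2), ← show tc x = tc y from h2, ← tc_mul (inv_mem h1) h1,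
      inv_mul_cancel, tc_Q (one_mem _)]
  have : Finite ↥(tc '' (Y : Set N0)) := (Set.toFinite _).image _
  have := Nat.card_le_card_of_injective
    (fun y : Y => ((⟨tc y, y, y.2, rfl⟩, ⟨_, hm y⟩) : ↥(tc '' (Y : Set N0)) × Q0)) (by
      intro x y e
      have e1 := congrArg Prod.fst e
      have e2 := congrArg (fun p => (p.2 : N0)) e
      simp only at e1 e2
      rw [e1] at e2
      exact Subtype.ext (mul_left_cancel e2))
  rwa [Nat.card_prod, hq, Nat.card_coe_set_eq] at this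

theorem run (q : QKStmt) {Y : Subgroup N0} (h : El Y) (fin : List ℕ → Bool) (n : ℕ)
    (hc : chk fin n [0] 0 = true) (hn : 2 ^ (n + 12) < Nat.card Y) :
    ∃ L : List ℕ, (∀ x ∈ L, ∃ s ∈ Y, tc s = x) ∧ fin L = true := by
  refine chk_spec fin (tc '' (Y : Set N0)) ?_ ?_ ?_ n [0] 0 ?_ (fun _ _ _ => Nat.zero_le _) ?_ hc
  · rintro _ ⟨s, -, rfl⟩
    exact pk_lt _ _ _ _ _ _ _
  · rintro _ ⟨s, hs, rfl⟩ _ ⟨t, ht, rfl⟩
    exact ⟨s * t, Y.mul_mem hs ht, tc_mul (h.2.1 hs) (h.2.1 ht)⟩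
  · rintro _ ⟨s, hs, rfl⟩
    rw [← tc_mul (h.2.1 hs) (h.2.1 hs), tc_Q (h.2.2 s hs)]
  · intro x hx
    rw [List.mem_singleton.1 hx]
    exact ⟨1, Y.one_mem, tc_Q (one_mem _)⟩
  · have := card_le q h
    rw [pow_add] at hn
    rw [List.length_singleton]
    omega

theorem eqs {v s : N0} (hv : v ∈ Q0) (hs : s ∈ T0) (h : v * s * v⁻¹ * s⁻¹ ∈ Z0) :
    e1 (tc s) (rc v 1) = true ∧ e0 (tc s) (rc v 1) (rc v 0) = true := by
  have a := qe hv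
  have b := te hs
  have x := v.alt.symm
  have y := s.alt.symm
  obtain ⟨z1, z2⟩ := mem_Pat.1 h
  have e : v * s = (v * s * v⁻¹ * s⁻¹) * (s * v) := by group
  generalize v * s * v⁻¹ * s⁻¹ = ζ at z1 z2 e
  have zg : ζ.g.1 = 1 := by
    ext i j
    exact z2 i j rfl
  have eg : ∀ i j, (v * s).g.1 i j = (s * v).g.1 i j := fun i j => by
    rw [e, mul_g, coe_mul', zg, Matrix.one_mul]
  have ea : ∀ i j, (v * s).a i j = ζ.a i j + (s * v).a i j := fun i j => by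
    rw [e, mul_a, zg, Matrix.one_mul, transpose_one, Matrix.mul_one, Matrix.add_apply]
  have g02 := eg 0 2
  have g03 := eg 0 3
  have g04 := eg 0 4
  have g13 := eg 1 3
  have g14 := eg 1 4
  have a02 := ea 0 2
  have a03 := ea 0 3
  have a04 := ea 0 4
  have a12 := ea 1 2
  have a13 := ea 1 3
  have a14 := ea 1 4
  rw [z1 _ _ rfl] at a02 a03 a04 a12 a13 a14
  simp only [mul_a, mul_g, coe_mul', Matrix.add_apply, mul_apply, transpose_apply, Fin.sum_univ_five,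
    a.g00, a.g11, a.g22, a.g33, a.g44, a.g10, a.g20, a.g21, a.g30, a.g31, a.g32, a.g40, a.g41, a.g42,
    a.g43, b.g00, b.g11, b.g22, b.g33, b.g44, b.g10, b.g20, b.g21, b.g30, b.g31, b.g32, b.g40, b.g41,
    b.g42, b.g43, a.g01, a.g23, a.g24, a.g34, a.a23, a.a24, a.a34, v.alt.2, s.alt.2, x 3 2, x 4 2,
    x 4 3, y 3 2, y 4 2, y 4 3] at g02 g03 g04 g13 g14 a02 a03 a04 a12 a13 a14
  obtain ⟨p0, p1, p2, p3, p4, p5, p6⟩ := bt_pk (s.g.1 0 1) (s.g.1 2 3) (s.g.1 2 4) (s.g.1 3 4)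
    (s.a 2 3) (s.a 2 4) (s.a 3 4)
  obtain ⟨q0, q1, q2, q3, q4, q5, -⟩ := bt_pk (v.g.1 0 2) (v.g.1 0 3) (v.g.1 0 4)
    (v.a 0 2) (v.a 0 3) (v.a 0 4) 0
  obtain ⟨r0, r1, r2, r3, r4, r5, -⟩ := bt_pk (v.g.1 1 2) (v.g.1 1 3) (v.g.1 1 4)
    (v.a 1 2) (v.a 1 3) (v.a 1 4) 0
  rw [e1, e0]
  simp only [tc, rc, p0, p1, p2, p3, p4, p5, p6, q0, q1, q2, q3, q4, q5, r0, r1, r2, r3, r4, r5,
    v_add, v_mul, Bool.and_eq_true, v_eq, v_eq0]
  refine ⟨⟨⟨⟨⟨⟨?_, ?_⟩, ?_⟩, ?_⟩, ?_⟩, ?_⟩, ⟨⟨⟨?_, ?_⟩, ?_⟩, ?_⟩, ?_⟩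
  · linear_combination g13
  · linear_combination g14
  · linear_combination -g02
  · linear_combination a12
  · linear_combination a13
  · linear_combination a14
  · linear_combination g03
  · linear_combination g04
  · linear_combination a02
  · linear_combination a03
  · linear_combination a04

theorem rc_inj {u v : N0} {i : Fin 5} (h : rc u i = rc v i) :
    u.g.1 i 2 = v.g.1 i 2 ∧ u.g.1 i 3 = v.g.1 i 3 ∧ u.g.1 i 4 = v.g.1 i 4 ∧
      u.a i 2 = v.a i 2 ∧ u.a i 3 = v.a i 3 ∧ u.a i 4 = v.a i 4 := by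
  obtain ⟨q0, q1, q2, q3, q4, q5, -⟩ := bt_pk (u.g.1 i 2) (u.g.1 i 3) (u.g.1 i 4)
    (u.a i 2) (u.a i 3) (u.a i 4) 0
  obtain ⟨r0, r1, r2, r3, r4, r5, -⟩ := bt_pk (v.g.1 i 2) (v.g.1 i 3) (v.g.1 i 4)
    (v.a i 2) (v.a i 3) (v.a i 4) 0
  rw [rc, rc] at h
  rw [h] at q0 q1 q2 q3 q4 q5
  exact ⟨v_inj _ _ (q0.symm.trans r0), v_inj _ _ (q1.symm.trans r1), v_inj _ _ (q2.symm.trans r2),
    v_inj _ _ (q3.symm.trans r3), v_inj _ _ (q4.symm.trans r4), v_inj _ _ (q5.symm.trans r5)⟩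

theorem Q_ext {u v : N0} (hu : u ∈ Q0) (hv : v ∈ Q0) (h : u.a 0 1 = v.a 0 1) (h0 : rc u 0 = rc v 0)
    (h1 : rc u 1 = rc v 1) : u = v := by
  obtain ⟨b1, b2, b3, b4, b5, b6⟩ := rc_inj h0
  obtain ⟨c1, c2, c3, c4, c5, c6⟩ := rc_inj h1
  obtain ⟨u1, u2⟩ := mem_Pat.1 hu
  obtain ⟨v1, v2⟩ := mem_Pat.1 hv
  refine N0.ext ?_ (Subtype.ext ?_)
  · ext i j
    fin_cases i <;> fin_cases j <;> first
      | assumption
      | exact (u.alt.2 _).trans (v.alt.2 _).symm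
      | exact (u1 _ _ rfl).trans (v1 _ _ rfl).symm
      | exact (u.alt.symm _ _).trans (Eq.trans (by assumption) (v.alt.symm _ _))
  · ext i j
    fin_cases i <;> fin_cases j <;> first
      | assumption
      | exact (u2 _ _ rfl).trans (v2 _ _ rfl).symm

theorem cq_le {Y : Subgroup N0} (h : El Y) {L : List ℕ} (hL : ∀ x ∈ L, ∃ s ∈ Y, tc s = x)
    (hf : fin4 L = true) : (CQ Y).ncard ≤ 2 ^ 4 := by
  have h1 := Set.ncard_le_ncard_of_injOn (s := CQ Y)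
    (t := ((Finset.univ ×ˢ (sol L).toFinset : Finset (F × ℕ × ℕ)) : Set (F × ℕ × ℕ)))
    (fun v => (v.a 0 1, rc v 1, rc v 0)) (by
      intro v hv
      have k : ∀ c ∈ L, e1 c (rc v 1) = true ∧ e0 c (rc v 1) (rc v 0) = true := by
        intro c hc
        obtain ⟨s, hs, rfl⟩ := hL c hc
        exact eqs hv.1 (h.2.1 hs) (hv.2 s hs)
      simp only [Finset.coe_product, Finset.coe_univ, Set.mem_prod, Set.mem_univ, true_and,
        Finset.mem_coe, List.mem_toFinset, sol, List.mem_flatMap, List.mem_filter, List.mem_range,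
        List.all_eq_true, List.mem_map]
      exact ⟨rc v 1, ⟨pk_lt' _ _ _ _ _ _, fun c hc => (k c hc).1⟩, rc v 0,
        ⟨pk_lt' _ _ _ _ _ _, fun c hc => (k c hc).2⟩, rfl⟩)
    (fun u hu v hv e => Q_ext hu.1 hv.1 (congrArg (·.1) e) (congrArg (·.2.2) e) (congrArg (·.2.1) e))
    (Finset.finite_toSet _)
  rw [Set.ncard_coe_finset, Finset.card_product, Finset.card_univ, ZMod.card] at h1
  have h2 := (sol L).toFinset_card_le
  have h3 : (sol L).length ≤ 8 := Nat.le_of_ble_eq_true hf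
  omega

/-- `Q ⟨z34⟩` lies in this pattern subgroup -/
def P34 : Subgroup N0 := Pat (fun i j => i ≤ 2 ∨ j ≤ 2 ∨ (i ≤ 4 ∧ j ≤ 4)) (fun i j => i ≤ 2 ∧ 3 ≤ j)

theorem le_P34 : Q0 ⊔ zpowers (zz 3 4) ≤ P34 := by
  refine sup_le (fun s hs => ?_) (zpowers_le.2 (by unfold P34; decide))
  obtain ⟨h1, h2⟩ := mem_Pat.1 hs
  refine mem_Pat.2 ⟨fun i j hij => h1 i j ?_, h2⟩
  revert i j
  decide

theorem tb3 (q : QKStmt) : Tb3Stmt := by
  intro Y h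
  refine ⟨fun hc => ?_, ?_, fun hle => ?_⟩
  · obtain ⟨L, h1, h2⟩ := run q h fin4 4 chk4 (by omega)
    exact cq_le h h1 h2
  · by_contra hc
    obtain ⟨L, -, h2⟩ := run q h _ 6 chk6 (by omega)
    exact absurd h2 (by simp)
  · by_contra hc
    obtain ⟨L, h1, h2⟩ := run q h fin5 5 chk5 (by omega)
    simp only [fin5, List.any_eq_true, Bool.and_eq_true, Nat.beq_eq, Nat.ble_eq] at h2
    obtain ⟨c, hc, h3, h4⟩ := h2
    obtain ⟨s, hs, rfl⟩ := h1 c hc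
    obtain ⟨k1, k2, k3, k4, k5⟩ := pk_five _ _ _ _ _ _ _ h3 h4
    have hA : s ∈ QA := mem_Pat.2 ⟨fun _ _ e => absurd e (by simp), g_of (te (h.2.1 hs)) k1 k2 k3 k4⟩
    have hP := (mem_Pat.1 (le_P34 (hle ⟨hs, hA⟩))).1
    exact k5 ⟨hP 2 4 rfl, hP 3 4 rfl⟩

end Cfsg.Agent.H92.LpTb3
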