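import Cfsg.Agent.H17.LPDefs

/-! Project LP, piece TB3: the finite checks on codes of `T / Q`. -/

set_option autoImplicit false

namespace Cfsg.Agent.H92.LpTb3

/-- a bit -/
def bt (n i : ℕ) : ℕ := Nat.land (Nat.shiftRight n i) 1

/-- packing of seven bits -/
def pk (a b c d e f g : ℕ) : ℕ := a + 2 * b + 4 * c + 8 * d + 16 * e + 32 * f + 64 * g

/-- the product on codes `x12 x34 x35 x45 z34 z35 z45` -/
def tm (m n : ℕ) : ℕ :=
  pk (Nat.xor (bt m 0) (bt n 0)) (Nat.xor (bt m 1) (bt n 1))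
    (Nat.xor (Nat.xor (bt m 2) (bt n 2)) (Nat.land (bt m 1) (bt n 3))) (Nat.xor (bt m 3) (bt n 3))
    (Nat.xor (Nat.xor (Nat.xor (Nat.xor (bt m 4) (bt n 4)) (Nat.land (bt m 3) (bt n 5)))
      (Nat.land (Nat.land (bt m 1) (bt m 3)) (bt n 6))) (Nat.land (bt m 2) (bt n 6)))
    (Nat.xor (Nat.xor (bt m 5) (bt n 5)) (Nat.land (bt m 1) (bt n 6))) (Nat.xor (bt m 6) (bt n 6))

def has (L : List ℕ) (x : ℕ) : Bool := L.any fun y => Nat.beq x y

theorem has_iff {L : List ℕ} {x : ℕ} : has L x = true ↔ x ∈ L := by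
  simp [has]

def ext (L : List ℕ) (s : ℕ) : List ℕ := L ++ L.map (tm s)

def ok (L : List ℕ) (lo s : ℕ) : Bool :=
  Nat.ble lo s && Nat.beq (tm s s) 0 && !(has L s) &&
    L.all fun h => Nat.beq (tm (tm s h) (tm s h)) 0 && (Nat.ble s (tm s h) || has L (tm s h))

def chk (fin : List ℕ → Bool) : ℕ → List ℕ → ℕ → Bool
  | 0, L, _ => fin L
  | n + 1, L, lo => (List.range 128).all fun s => !(ok L lo s) || chk fin n (ext L s) s

theorem chk_spec (fin : List ℕ → Bool) (S : Set ℕ) (hb : ∀ x ∈ S, x < 128)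
    (hm : ∀ x ∈ S, ∀ y ∈ S, tm x y ∈ S) (hq : ∀ x ∈ S, tm x x = 0) :
    ∀ (n : ℕ) (L : List ℕ) (lo : ℕ), (∀ x ∈ L, x ∈ S) → (∀ x ∈ S, x ∉ L → lo ≤ x) →
      L.length * 2 ^ n < 2 * S.ncard → chk fin n L lo = true →
      ∃ L' : List ℕ, (∀ x ∈ L', x ∈ S) ∧ fin L' = true := by
  intro n
  induction n with
  | zero => exact fun L _ h1 _ _ h => ⟨L, h1, h⟩
  | succ n ih =>
    intro L lo h1 h2 h3 h
    have hex : ∃ x, x ∈ S ∧ x ∉ L := by
      by_contra c
      have hs : S ⊆ (L.toFinset : Set ℕ) := fun x hx => by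
        by_contra d
        exact c ⟨x, hx, fun e => d (by simpa using e)⟩
      have h4 := Set.ncard_le_ncard hs (Finset.finite_toSet _)
      rw [Set.ncard_coe_finset] at h4
      have h5 := L.toFinset_card_le
      have h6 : L.length * 1 ≤ L.length * 2 ^ n := Nat.mul_le_mul_left _ Nat.one_le_two_pow
      rw [pow_succ, ← mul_assoc] at h3
      omega
    classical
    obtain ⟨hs, hsL⟩ := Nat.find_spec hex
    have hmin : ∀ x ∈ S, x ∉ L → Nat.find hex ≤ x := fun x a b => Nat.find_min' hex ⟨a, b⟩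
    generalize Nat.find hex = s at hs hsL hmin
    have hok : ok L lo s = true := by
      simp only [ok, Bool.and_eq_true, Nat.ble_eq, Nat.beq_eq, Bool.not_eq_true', List.all_eq_true,
        Bool.or_eq_true, has_iff]
      refine ⟨⟨⟨h2 s hs hsL, hq s hs⟩, ?_⟩, fun x hx => ⟨hq _ (hm s hs x (h1 x hx)), ?_⟩⟩
      · rw [← Bool.not_eq_true, has_iff]; exact hsL
      · by_cases c : tm s x ∈ L
        · exact Or.inr c
        · exact Or.inl (hmin _ (hm s hs x (h1 x hx)) c)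
    have h' := List.all_eq_true.1 h s (List.mem_range.2 (hb s hs))
    rw [hok] at h'
    refine ih (ext L s) s ?_ ?_ ?_ (by simpa using h')
    · intro x hx
      rcases List.mem_append.1 hx with hx | hx
      · exact h1 x hx
      · obtain ⟨y, hy, rfl⟩ := List.mem_map.1 hx
        exact hm s hs y (h1 y hy)
    · exact fun x hx hn => hmin x hx fun c => hn (List.mem_append_left _ c)
    · rw [ext, List.length_append, List.length_map]
      rw [pow_succ] at h3
      nlinarith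

/-- equations on the second row `x23 x24 x25 z23 z24 z25` -/
def e1 (c y : ℕ) : Bool :=
  Nat.beq (Nat.land (bt y 0) (bt c 1)) 0 &&
  Nat.beq (Nat.xor (Nat.land (bt y 0) (bt c 2)) (Nat.land (bt y 1) (bt c 3))) 0 &&
  Nat.beq (Nat.land (bt c 0) (bt y 0)) 0 &&
  Nat.beq (Nat.xor (Nat.land (bt y 1) (bt c 4)) (Nat.land (bt y 2) (bt c 5)))
    (Nat.xor (Nat.land (bt c 1) (bt y 4)) (Nat.land (bt c 2) (bt y 5))) &&
  Nat.beq (Nat.xor (Nat.land (bt y 0) (bt c 4)) (Nat.land (bt y 2) (bt c 6)))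
    (Nat.land (bt c 3) (bt y 5)) &&
  Nat.beq (Nat.xor (Nat.land (bt y 0) (bt c 5)) (Nat.land (bt y 1) (bt c 6))) 0

/-- equations on the first row -/
def e0 (c y w : ℕ) : Bool :=
  Nat.beq (Nat.land (bt w 0) (bt c 1)) (Nat.land (bt c 0) (bt y 1)) &&
  Nat.beq (Nat.xor (Nat.land (bt w 0) (bt c 2)) (Nat.land (bt w 1) (bt c 3)))
    (Nat.land (bt c 0) (bt y 2)) &&
  Nat.beq (Nat.xor (Nat.land (bt w 1) (bt c 4)) (Nat.land (bt w 2) (bt c 5)))
    (Nat.xor (Nat.xor (Nat.land (bt c 1) (bt w 4)) (Nat.land (bt c 2) (bt w 5)))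
      (Nat.land (bt c 0) (Nat.xor (Nat.xor (bt y 3) (Nat.land (bt c 1) (bt y 4)))
        (Nat.land (bt c 2) (bt y 5))))) &&
  Nat.beq (Nat.xor (Nat.land (bt w 0) (bt c 4)) (Nat.land (bt w 2) (bt c 6)))
    (Nat.xor (Nat.land (bt c 3) (bt w 5))
      (Nat.land (bt c 0) (Nat.xor (bt y 4) (Nat.land (bt c 3) (bt y 5))))) &&
  Nat.beq (Nat.xor (Nat.land (bt w 0) (bt c 5)) (Nat.land (bt w 1) (bt c 6)))
    (Nat.land (bt c 0) (bt y 5))

def sol (L : List ℕ) : List (ℕ × ℕ) :=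
  ((List.range 64).filter fun y => L.all fun c => e1 c y).flatMap fun y =>
    ((List.range 64).filter fun w => L.all fun c => e0 c y w).map fun w => (y, w)

def fin4 (L : List ℕ) : Bool := Nat.ble (sol L).length 8

def fin5 (L : List ℕ) : Bool := L.any fun c => Nat.beq (Nat.land c 15) 0 && Nat.ble 32 c

theorem chk4 : chk fin4 4 [0] 0 = true := by decide +kernel

theorem chk5 : chk fin5 5 [0] 0 = true := by decide +kernel

theorem chk6 : chk (fun _ => false) 6 [0] 0 = true := by decide +kernel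

end Cfsg.Agent.H92.LpTb3
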