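import Mathlib
import Cfsg.Agent.H45.OnDefs

/-! A double count of points and conjugate lines. -/

set_option autoImplicit false

namespace Cfsg.Agent.H92.OnIb

open Cfsg.Agent.H45.On

universe u v

theorem dcount {α β : Type*} [Finite α] [Finite β] (s : Set α) (t : Set β) (r : α → β → Prop)
    {m n : ℕ} (hm : ∀ a ∈ s, m ≤ {b | b ∈ t ∧ r a b}.ncard)
    (hn : ∀ b ∈ t, {a | a ∈ s ∧ r a b}.ncard ≤ n) : s.ncard * m ≤ t.ncard * n := by
  classical
  rw [Set.ncard_eq_toFinset_card s, Set.ncard_eq_toFinset_card t]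
  refine Finset.card_mul_le_card_mul r (fun a ha => ?_) fun b hb => ?_
  · refine (hm a (by simpa using ha)).trans_eq ?_
    rw [← Set.ncard_coe_finset]
    congr 1
    ext b
    simp [Finset.bipartiteAbove]
  · refine le_of_eq_of_le ?_ (hn b (by simpa using hb))
    rw [← Set.ncard_coe_finset]
    congr 1
    ext a
    simp [Finset.bipartiteBelow]

theorem ib : IbStmt.{u, v} := by
  intro G Ω _ _ _ _ S L K hD U U' z hU hU'
  rcases (L.Ap U U').eq_empty_or_nonempty with h | ⟨x, hx⟩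
  · simp [h]
  obtain ⟨⟨Mx, hMx, UMx⟩, M', hM', U'M', nU⟩ := hx
  have hc : Cm Mx M' := S.comm hMx.1 hM'.1 fun e => nU (e ▸ UMx)
  have hs : ∀ s ∈ M', cj s U = U := fun s hs =>
    cj_of_comm fun m hm => (hc m (UMx hm) s hs).symm
  have h5 := K.five hU' hM' U'M'
  have key := dcount {U'' | ∃ s ∈ M', U'' = cj s U'} ({w | L.On U w} \ {x})
    (fun U'' w => w ∈ L.Ap U U'') (m := (L.Ap U U').ncard - 1) (n := min 2 (L.kk z - 1)) ?_ ?_
  · rw [Set.ncard_diff_singleton_of_mem (show x ∈ {w | L.On U w} from ⟨Mx, hMx, UMx⟩)] at key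
    rw [mul_comm (min _ _)]
    exact (Nat.mul_le_mul_right _ h5).trans key
  · rintro _ ⟨s, hsM, rfl⟩
    have h1 : (L.Ap U U').ncard ≤ (L.Ap U (cj s U')).ncard := by
      refine Set.ncard_le_ncard_of_injOn (fun w => s • w) ?_
        (fun a _ b _ e => MulAction.injective s e)
      rintro w ⟨hw, M, hM, h1, h2⟩
      refine ⟨hs s hsM ▸ K.on s hw, cj s M, K.cp s hM, cj_le.2 h1, fun h3 => h2 ?_⟩
      rw [← hs s hsM] at h3
      exact cj_le.1 h3
    have h2 : (L.Ap U (cj s U')).ncard - 1 ≤ (L.Ap U (cj s U') \ {x}).ncard := by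
      have := Set.le_ncard_diff {x} (L.Ap U (cj s U'))
      rwa [Set.ncard_singleton] at this
    refine ((Nat.sub_le_sub_right h1 1).trans h2).trans (Set.ncard_le_ncard ?_)
    rintro w ⟨hw, hwx⟩
    exact ⟨⟨hw.1, hwx⟩, hw⟩
  · rintro w ⟨⟨Mw, hMw, UMw⟩, hwx⟩
    have hwx' : w ≠ x := hwx
    let T : Set (Subgroup G) := {M | L.Cp w M ∧ L.Ln (M ⊓ M') ∧ ¬ U ≤ M}
    have h1 : {a | a ∈ {U'' | ∃ s ∈ M', U'' = cj s U'} ∧ w ∈ L.Ap U a} ⊆
        (fun M => M ⊓ M') '' T := by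
      rintro _ ⟨⟨s, hsM, rfl⟩, -, M, hM, h1, h2⟩
      have h3 : cj s U' ≤ M' := cj_self hsM ▸ cj_le.2 U'M'
      have e := K.eq_inf (K.ln s hU') hM hM' h1 h3 hwx'
      exact ⟨M, ⟨hM, e ▸ K.ln s hU', h2⟩, e.symm⟩
    refine ((Set.ncard_le_ncard h1).trans (Set.ncard_image_le (s := T))).trans (le_min ?_ ?_)
    · refine le_trans (Set.ncard_le_ncard ?_) (hD w x M' hwx' hM')
      exact fun M hM => ⟨hM.1, hM.2.1⟩
    · rw [K.kk_eq z w, S0.Li.kk,
        ← Set.ncard_diff_singleton_of_mem (show Mw ∈ {M | L.Cp w M} from hMw)]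
      exact Set.ncard_le_ncard fun M hM => ⟨hM.1, fun e => hM.2.2 (e ▸ UMw)⟩

end Cfsg.Agent.H92.OnIb
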