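import Cfsg.Agent.H35.RfQ

/-! Project RF, piece KITG: the basic kit for the code module. -/

set_option autoImplicit false

namespace Cfsg.Agent.H92.RfKitG

open Cfsg Subgroup Cfsg.Agent.H42 Cfsg.Agent.H18.Rf Cfsg.Agent.H35.RF
open Cfsg.Agent.H48 (IsWord isWord_empty isWord_univ)
open scoped Pointwise symmDiff

universe u

variable {G : Type u} [Group G] {V : Subgroup G} {ρ : NN V →* M24} {ψ : Finset GolayPt → G}

theorem word_o0 : IsWord o0 := oct0_mem.1

theorem card_o0 : o0.card = 8 := oct0_mem.2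

theorem word_smul (g : M24) {c : Finset GolayPt} (hc : IsWord c) : IsWord (g • c) :=
  Cfsg.Agent.H48.IsWord.smul g.2 hc

theorem card_pt : Fintype.card GolayPt = 24 := by decide +kernel

theorem psi_empty (h : Gol V ρ ψ) : ψ ∅ = 1 := (h.ker _ isWord_empty).2 (Or.inl rfl)

theorem psi_sq (h : Gol V ρ ψ) {c : Finset GolayPt} (hc : IsWord c) : ψ c * ψ c = 1 := by
  rw [← h.add c c hc hc, symmDiff_self, Finset.bot_eq_empty, psi_empty h]

/-- the fibres of `ψ` on words -/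
theorem psi_eq (h : Gol V ρ ψ) {c d : Finset GolayPt} (hc : IsWord c) (hd : IsWord d) :
    ψ c = ψ d ↔ c = d ∨ c = dᶜ := by
  have e1 : ψ c = ψ d ↔ ψ (c ∆ d) = 1 := by
    rw [h.add c d hc hd, ← psi_sq h hd, mul_left_inj]
  rw [e1, h.ker _ (hc.symmDiff hd), ← Finset.bot_eq_empty, symmDiff_eq_bot, ← Finset.top_eq_univ,
    symmDiff_eq_top, ← eq_compl_iff_isCompl]

theorem card_pre [Finite G] (h : St V ρ) (S : Subgroup M24) :
    Nat.card (pre V ρ S) = 2 ^ 11 * Nat.card S := by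
  have hk : ρ.ker = V.subgroupOf (NN V) := by
    ext n
    rw [MonoidHom.mem_ker, mem_subgroupOf, h.ker]
  have c1 : Nat.card (NN V) = Nat.card M24 * 2 ^ 11 := by
    rw [← ρ.ker.index_mul_card, index_ker, MonoidHom.range_eq_top.2 h.sur, card_top, hk,
      Nat.card_congr (subgroupOfEquivOfLe le_normalizer).toEquiv, h.card]
  have c2 := (S.comap ρ).index_mul_card
  rw [index_comap_of_surjective _ h.sur, c1, ← S.index_mul_card, mul_assoc] at c2
  rw [pre, card_map_of_injective (subtype_injective _), Nat.eq_of_mul_eq_mul_left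
    (Nat.pos_of_ne_zero index_ne_zero_of_finite) c2, mul_comm]

theorem mm_eq (h : Gol V ρ ψ) : MM V (ψ o0) = pre V ρ GO := by
  ext g
  rw [mem_pre, mem_inf, mem_centralizer_singleton_iff]
  have key : ∀ hg : g ∈ NN V, g * ψ o0 = ψ o0 * g ↔ ρ ⟨g, hg⟩ ∈ GO := by
    intro hg
    have e := h.act ⟨g, hg⟩ o0 word_o0
    rw [← mul_inv_eq_iff_eq_mul, MulAction.mem_stabilizer_iff]
    change _ ↔ ρ ⟨g, hg⟩ • o0 = o0
    rw [show g * ψ o0 * g⁻¹ = ψ (ρ ⟨g, hg⟩ • o0) from e, psi_eq h (word_smul _ word_o0) word_o0]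
    refine or_iff_left fun e' => ?_
    have := congrArg Finset.card e'
    rw [Finset.card_smul_finset, Finset.card_compl, card_pt, card_o0] at this
    omega
  exact ⟨fun ⟨hg, hc⟩ => ⟨hg, (key hg).1 hc⟩, fun ⟨hg, hc⟩ => ⟨hg, (key hg).2 hc⟩⟩

theorem cond_iff (c : Finset GolayPt) :
    (Disjoint c o0 ∨ o0 ⊆ c) ↔ ∀ p ∈ o0, ∀ q ∈ o0, (p ∈ c ↔ q ∈ c) := by
  rw [Finset.disjoint_right]
  constructor
  · rintro (h | h) p hp q hq
    · exact iff_of_false (h hp) (h hq)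
    · exact iff_of_true (h hp) (h hq)
  · intro h
    by_cases hc : ∀ ⦃a⦄, a ∈ o0 → a ∉ c
    · exact Or.inl hc
    · push Not at hc
      obtain ⟨a, ha, hac⟩ := hc
      exact Or.inr fun q hq => (h a ha q hq).1 hac

theorem mem_WG (h : Gol V ρ ψ) {v : G} (hv : v ∈ WG ψ) :
    ∃ c, IsWord c ∧ (Disjoint c o0 ∨ o0 ⊆ c) ∧ ψ c = v := by
  induction hv using closure_induction with
  | mem x hx => exact hx
  | one => exact ⟨∅, isWord_empty, Or.inl (Finset.disjoint_empty_left _), psi_empty h⟩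
  | mul x y _ _ hx hy =>
    obtain ⟨c, hc, h1, rfl⟩ := hx
    obtain ⟨d, hd, h2, rfl⟩ := hy
    refine ⟨c ∆ d, hc.symmDiff hd, ?_, h.add c d hc hd⟩
    rw [cond_iff] at h1 h2 ⊢
    intro p hp q hq
    rw [Finset.mem_symmDiff, Finset.mem_symmDiff, h1 p hp q hq, h2 p hp q hq]
  | inv x _ hx =>
    obtain ⟨c, hc, h1, rfl⟩ := hx
    exact ⟨c, hc, h1, eq_inv_of_mul_eq_one_left (psi_sq h hc)⟩

theorem kitG : KitGStmt.{u} := by
  intro G _ _ V ρ ψ st h
  refine ⟨mm_eq h, fun c hc => ⟨fun hv => ?_, fun hv => subset_closure ⟨c, hc, hv, rfl⟩⟩,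
    fun c hc => ?_, card_pre st⟩
  · obtain ⟨d, hd, h1, e⟩ := mem_WG h hv
    rcases (psi_eq h hc hd).1 e.symm with rfl | rfl
    · exact h1
    · rw [cond_iff] at h1 ⊢
      intro p hp q hq
      rw [Finset.mem_compl, Finset.mem_compl, h1 p hp q hq]
  · rw [Cfsg.Agent.H49.mem_zpowers_invol (psi_sq h word_o0), h.ker c hc, psi_eq h hc word_o0, or_assoc]

end Cfsg.Agent.H92.RfKitG
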