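import Cfsg.Agent.H18.RfSc
import Cfsg.Agent.H49.XSDual

/-! Project RF, piece XSII: the parabolic case of an extremal pair of extraspecial groups. -/

set_option autoImplicit false

namespace Cfsg.Agent.H92.RfXsII

open Cfsg Subgroup Cfsg.Agent.H18.MaxOff Cfsg.Agent.H18.Rf
open Cfsg.Agent.H49 (XS LX)

universe u

variable {G : Type u} [Group G]

/-- two elements moving `u` inside `u Z` have a commutator centralising `u` -/
theorem adj {z t y u : G} (tz : Commute t z) (yz : Commute y z)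
    (ht : t * u * t⁻¹ * u⁻¹ ∈ zpowers z) (hy : y * u * y⁻¹ * u⁻¹ ∈ zpowers z) :
    u * (t * y * t⁻¹ * y⁻¹) = t * y * t⁻¹ * y⁻¹ * u := by
  obtain ⟨i, hi⟩ := mem_zpowers_iff.1 ht
  obtain ⟨j, hj⟩ := mem_zpowers_iff.1 hy
  have h1 : t * u = z ^ i * u * t := by rw [hi]; group
  have h2 : y * u = z ^ j * u * y := by rw [hj]; group
  have c1 : t * z ^ j = z ^ j * t := (tz.zpow_right j).eq
  have c2 : y * z ^ i = z ^ i * y := (yz.zpow_right i).eq
  have c3 : z ^ j * z ^ i = z ^ i * z ^ j := zpow_mul_comm z j i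
  have e1 : t * y * u = z ^ j * z ^ i * u * (t * y) := by
    calc t * y * u = t * (y * u) := by group
      _ = t * z ^ j * u * y := by rw [h2]; simp only [mul_assoc]
      _ = z ^ j * (t * u) * y := by rw [c1]; simp only [mul_assoc]
      _ = z ^ j * z ^ i * u * (t * y) := by rw [h1]; simp only [mul_assoc]
  have e2 : y * t * u = z ^ j * z ^ i * u * (y * t) := by
    calc y * t * u = y * (t * u) := by group
      _ = y * z ^ i * u * t := by rw [h1]; simp only [mul_assoc]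
      _ = z ^ i * (y * u) * t := by rw [c2]; simp only [mul_assoc]
      _ = z ^ j * z ^ i * u * (y * t) := by rw [h2, c3]; simp only [mul_assoc]
  have c4 : Commute (y * t) (z ^ j * z ^ i) :=
    ((yz.mul_left tz).zpow_right j).mul_right ((yz.mul_left tz).zpow_right i)
  have c5 : Commute (t * y) (z ^ j * z ^ i) :=
    ((tz.mul_left yz).zpow_right j).mul_right ((tz.mul_left yz).zpow_right i)
  generalize z ^ j * z ^ i = c at e1 e2 c4 c5
  have e : t * y * t⁻¹ * y⁻¹ = t * y * (y * t)⁻¹ := by group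
  rw [e]
  generalize t * y = p at e1 c5
  generalize y * t = q at e2 c4
  have e3 : q⁻¹ * u = c⁻¹ * u * q⁻¹ := by
    have : u * q⁻¹ = c * (q⁻¹ * u) := by
      calc u * q⁻¹ = q⁻¹ * (q * u) * q⁻¹ := by group
        _ = q⁻¹ * c * u := by rw [e2]; group
        _ = c * (q⁻¹ * u) := by rw [c4.inv_left.eq, mul_assoc]
    rw [mul_assoc, this]; group
  calc u * (p * q⁻¹) = c⁻¹ * (c * u * p) * q⁻¹ := by group
    _ = c⁻¹ * p * u * q⁻¹ := by rw [← e1]; group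
    _ = p * (c⁻¹ * u * q⁻¹) := by rw [← c5.inv_right.eq]; group
    _ = p * q⁻¹ * u := by rw [← e3]; group

section Cfg

variable {Q Q' : Subgroup G} {z : G} {X Y : Subgroup G}

theorem yN (h : Cfg Q Q' z X Y) {y : G} (hy : y ∈ Y) : y ∈ NN Q := (h.hY ▸ hy : y ∈ Q' ⊓ NN Q).2

theorem yQ (h : Cfg Q Q' z X Y) {y : G} (hy : y ∈ Y) : y ∈ Q' := (h.hY ▸ hy : y ∈ Q' ⊓ NN Q).1

theorem xQ (h : Cfg Q Q' z X Y) : X ≤ Q := fun _ hx => (h.hX ▸ hx : _ ∈ Q ⊓ NN Q').1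

theorem zY (h : Cfg Q Q' z X Y) : zpowers z ≤ Y := by
  rw [h.hY]
  exact le_inf h.xs'.Z_le (h.xs.Z_le.trans le_normalizer)

theorem zD (h : Cfg Q Q' z X Y) : z ∈ Q ⊓ Y :=
  ⟨h.xs.Z_le (mem_zpowers z), zY h (mem_zpowers z)⟩

theorem dX (h : Cfg Q Q' z X Y) : Q ⊓ Y ≤ X := by
  intro d hd
  rw [h.hX]
  exact ⟨hd.1, le_normalizer (yQ h hd.2)⟩

theorem qz (h : Cfg Q Q' z X Y) {t : G} (ht : t ∈ Q) : Commute t z :=
  (mem_centralizer_singleton_iff.1 (h.xs.le_centralizer ht) : t * z = z * t)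

theorem yz (h : Cfg Q Q' z X Y) {y : G} (hy : y ∈ Y) : Commute y z :=
  (mem_centralizer_singleton_iff.1 (h.xs'.le_centralizer (yQ h hy)) : y * z = z * y)

theorem cmQ (h : Cfg Q Q' z X Y) {t y : G} (ht : t ∈ Q) (hy : y ∈ Y) : t * y * t⁻¹ * y⁻¹ ∈ Q := by
  have := Q.mul_mem ht ((mem_normalizer_iff.1 (yN h hy) _).1 (Q.inv_mem ht))
  simpa only [mul_assoc] using this

/-- `[Q, Y]` centralises `D` -/
theorem cmD (h : Cfg Q Q' z X Y) {t y : G} (ht : t ∈ Q) (hy : y ∈ Y) :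
    t * y * t⁻¹ * y⁻¹ ∈ CC (Q ⊓ Y) := by
  rw [mem_centralizer_iff]
  intro d hd
  exact adj (qz h ht) (yz h hy) (h.xs.commutator_mem ht hd.1)
    (h.xs'.commutator_mem (yQ h hy) (yQ h hd.2))

/-- `X = [t, Y] D` -/
theorem sur [Finite G] (h : Cfg Q Q' z X Y) {t : G} (ht : t ∈ Q) (hn : t ∉ X) {x : G} (hx : x ∈ X) :
    ∃ y ∈ Y, (t * y * t⁻¹ * y⁻¹)⁻¹ * x ∈ Y := by
  have key : ∀ a b : G, (t * a * t⁻¹ * a⁻¹)⁻¹ * (t * b * t⁻¹ * b⁻¹) =
      a * (t * (a⁻¹ * b) * t⁻¹ * (a⁻¹ * b)⁻¹) * a⁻¹ := by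
    intro a b; group
  let f : Y → X := fun y => ⟨t * y * t⁻¹ * (y : G)⁻¹, h.all t ht y y.2⟩
  let F : Y ⧸ Q.subgroupOf Y → X ⧸ Y.subgroupOf X := Quotient.map' f (by
    intro a b hab
    rw [QuotientGroup.leftRel_apply] at hab ⊢
    rw [mem_subgroupOf] at hab ⊢
    change (t * a * t⁻¹ * (a : G)⁻¹)⁻¹ * (t * b * t⁻¹ * (b : G)⁻¹) ∈ Y
    rw [key]
    exact Y.mul_mem (Y.mul_mem a.2 (zY h (h.xs.commutator_mem ht hab))) (Y.inv_mem a.2))
  have hF : Function.Injective F := by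
    intro a b
    induction a using QuotientGroup.induction_on with | _ a => ?_
    induction b using QuotientGroup.induction_on with | _ b => ?_
    intro hab
    have h1 : (f a)⁻¹ * f b ∈ Y.subgroupOf X := QuotientGroup.eq.1 hab
    rw [mem_subgroupOf] at h1
    change (t * a * t⁻¹ * (a : G)⁻¹)⁻¹ * (t * b * t⁻¹ * (b : G)⁻¹) ∈ Y at h1
    rw [key] at h1
    have h2 := Y.mul_mem (Y.mul_mem (Y.inv_mem a.2) h1) a.2
    have e : ∀ c : G, (a : G)⁻¹ * (a * c * (a : G)⁻¹) * a = c := by intro c; group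
    rw [e] at h2
    refine QuotientGroup.eq.2 ?_
    rw [mem_subgroupOf]
    exact h.inj t ht hn _ (Y.mul_mem (Y.inv_mem a.2) b.2) h2
  have hc : Nat.card (Y ⧸ Q.subgroupOf Y) = Nat.card (X ⧸ Y.subgroupOf X) := by
    have h1 := XS.card_mul_relIndex' Q Y
    have h2 := XS.card_mul_relIndex' Y X
    have e : X ⊓ Y = Y ⊓ Q :=
      le_antisymm (le_inf inf_le_right (inf_le_left.trans (xQ h)))
        (le_inf (fun d hd => dX h ⟨hd.2, hd.1⟩) inf_le_left)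
    rw [e, h.card, ← h1] at h2
    exact (Nat.eq_of_mul_eq_mul_left Nat.card_pos h2).symm
  have hS := (hF.bijective_of_nat_card_le hc.ge).2
  obtain ⟨a, ha⟩ := hS ((⟨x, hx⟩ : X) : X ⧸ Y.subgroupOf X)
  induction a using QuotientGroup.induction_on with | _ a => ?_
  have h1 : (f a)⁻¹ * ⟨x, hx⟩ ∈ Y.subgroupOf X := QuotientGroup.eq.1 ha
  rw [mem_subgroupOf] at h1
  exact ⟨a, a.2, h1⟩

/-- an element centralising `D` and `[t, Y]` centralises `X` -/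
theorem cenX [Finite G] (h : Cfg Q Q' z X Y) {t : G} (ht : t ∈ Q) (hn : t ∉ X) {r : G}
    (h1 : r ∈ CC (Q ⊓ Y)) (h2 : ∀ y ∈ Y, r * (t * y * t⁻¹ * y⁻¹) = t * y * t⁻¹ * y⁻¹ * r) :
    r ∈ CC X := by
  rw [mem_centralizer_iff]
  intro x hx
  obtain ⟨y, hy, hd⟩ := sur h ht hn hx
  have hd' : (t * y * t⁻¹ * y⁻¹)⁻¹ * x ∈ Q ⊓ Y :=
    ⟨Q.mul_mem (Q.inv_mem (cmQ h ht hy)) (xQ h hx), hd⟩
  have c1 : Commute ((t * y * t⁻¹ * y⁻¹)⁻¹ * x) r := mem_centralizer_iff.1 h1 _ hd'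
  have c2 : Commute (t * y * t⁻¹ * y⁻¹) r := (h2 y hy).symm
  have := (c2.mul_left c1).eq
  rwa [mul_inv_cancel_left] at this

end Cfg

theorem xsII : XsIIStmt.{u} := by
  intro G _ _ Q Q' z X Y h dp
  obtain ⟨t, ht, hn⟩ := SetLike.not_le_iff_exists.1 h.nx
  have dd := h.xs.centralizer_centralizer (U := Q ⊓ Y) inf_le_left (zD h)
  have xp : Q ⊓ CC X = RR Q Y := by
    apply le_antisymm
    · refine le_inf ?_ (inf_le_right.trans (centralizer_le (dX h)))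
      rw [← dd]
      exact inf_le_inf_left _ (centralizer_le dp)
    · intro r hr
      refine ⟨hr.1.1, cenX h ht hn hr.2 fun y hy => ?_⟩
      exact mem_centralizer_iff.1 (cmD h ht hy) r hr.1
  have dcm : Q ⊓ Y ≤ CM Y (zpowers z) := by
    intro d hd
    refine ⟨centralizer_le_normalizer _ ?_, fun y hy => h.xs'.commutator_mem (yQ h hd.2) (yQ h hy)⟩
    rw [mem_centralizer_iff]
    rintro _ ⟨i, rfl⟩
    exact ((qz h hd.1).zpow_right i).symm.eq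
  refine ⟨dp, ?_, ?_, ?_, ?_, ?_⟩
  · rw [← xp]
    exact (h.xs.centralizer_centralizer (xQ h) (dX h (zD h))).symm
  · intro x hx y hy
    exact ⟨⟨cmQ h (xQ h hx) hy, (h.xc x (xQ h hx)).1 hx y hy⟩, cmD h (xQ h hx) hy⟩
  · refine le_antisymm ?_ (le_inf inf_le_left dcm)
    rintro v ⟨hv, hc⟩
    have hvX : v ∈ X := (h.xc v hv).2 fun y hy => zY h (hc.2 y hy)
    obtain ⟨y, hy, hd⟩ := sur h ht hn hvX
    have hd' : (t * y * t⁻¹ * y⁻¹)⁻¹ * v ∈ Q ⊓ Y :=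
      ⟨Q.mul_mem (Q.inv_mem (cmQ h ht hy)) hv, hd⟩
    have hq := cmQ h ht hy
    have hp := cmD h ht hy
    generalize t * y * t⁻¹ * y⁻¹ = w at hd' hq hp
    have hw : w ∈ CM Y (zpowers z) := by
      have := (CM Y (zpowers z)).mul_mem hc ((CM Y (zpowers z)).inv_mem (dcm hd'))
      have e : v * (w⁻¹ * v)⁻¹ = w := by group
      rwa [e] at this
    have hX : w ∈ CC X := cenX h ht hn hp fun y' hy' => by
      refine adj (qz h ht) (yz h hy') (h.xs.commutator_mem ht hq) ?_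
      have := inv_mem (hw.2 y' hy')
      have e : (w * y' * w⁻¹ * y'⁻¹)⁻¹ = y' * w * y'⁻¹ * w⁻¹ := by group
      rwa [e] at this
    have hR : w ∈ RR Q Y := xp ▸ (⟨hq, hX⟩ : w ∈ Q ⊓ CC X)
    have := mul_mem hR.1 hd'
    rwa [mul_inv_cancel_left] at this
  · intro s hs hsn v hv
    obtain ⟨y, hy, hd⟩ := sur h hs hsn (dp hv)
    exact ⟨y, hy, ⟨Q.mul_mem (Q.inv_mem (cmQ h hs hy)) hv.1, hd⟩,
      (CC (Q ⊓ Y)).mul_mem ((CC (Q ⊓ Y)).inv_mem (cmD h hs hy)) hv.2⟩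
  · intro hle
    have hXY : X ≤ Y := by
      intro x hx
      obtain ⟨y, hy, hd⟩ := sur h ht hn hx
      have h1 := (hle (⟨cmQ h ht hy, cmD h ht hy⟩ : _ ∈ Q ⊓ CC (Q ⊓ Y))).1.2
      have := mul_mem h1 hd
      rwa [mul_inv_cancel_left] at this
    have e : X = Y := eq_of_le_of_card_ge hXY h.card.ge
    exact h.ny (e ▸ xQ h)

end Cfsg.Agent.H92.RfXsII
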