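import Cfsg.Agent.H6.TBDefs

/-! Project TB, piece XL. -/

set_option autoImplicit false
set_option linter.unusedSectionVars false

namespace Cfsg.Agent.H92.TB

open Cfsg Subgroup Cfsg.Agent.H6.TB
open Cfsg.Agent.H83 (cj)
open scoped Cfsg.Agent.H63 commutatorElement

universe u

variable {G : Type u} [Group G] [Finite G] {Ω : Set (Subgroup G)}

theorem eq_of_three {A U : Subgroup G} (h4 : Nat.card A = 4) (hU : U ≤ A) {a b : G} (ha : a ∈ U)
    (hb : b ∈ U) (a1 : a ≠ 1) (b1 : b ≠ 1) (ab : a ≠ b) : A ≤ U := by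
  have d : Nat.card U ∣ 4 := h4 ▸ card_dvd_of_le hU
  have l : 3 ≤ Nat.card U := by
    have : ({1, a, b} : Set G).ncard = 3 :=
      Set.ncard_eq_three.2 ⟨1, a, b, a1.symm, b1.symm, ab, rfl⟩
    rw [← this, ← SetLike.coe_sort_coe, Nat.card_coe_set_eq]
    refine Set.ncard_le_ncard ?_ (Set.toFinite _)
    rintro y (rfl | rfl | rfl)
    exacts [one_mem U, ha, hb]
  have e : Nat.card U = 4 := by
    have := Nat.le_of_dvd (by decide) d
    rcases (by omega : Nat.card U = 3 ∨ Nat.card U = 4) with e | e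
    · rw [e] at d; exact absurd d (by decide)
    · exact e
  exact (eq_of_le_of_card_ge hU (by omega)).ge

theorem om_cent (c : C0 Ω) {B B' : Subgroup G} (n : Nc Ω B B') {y : G} (hy : y ∈ om B)
    (h : y ∈ C[B']) : y = 1 := by
  by_contra y1
  obtain ⟨x, hx, x2⟩ := c.nel B' n.r
  refine x2 ((c.la.mem_om B' n.r x).1 (c.le.cA (c.la.nsymm n) x hx y (mem_sup_right hy)
    (fun m => n.ne (c.la.eq B n.l B' n.r y (om_le B hy) (om_le B' m) y1)) (h x hx))).2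

theorem xl : XLStmt.{u} := by
  intro G _ _ Ω c xa B B' B'' x
  have n1 := x.n1
  have n2 := x.n2
  have hB := n1.l
  have S0 : B ⊔ om B' ≤ B ⊔ B' := sup_le_sup_left (om_le B') B
  have cE : ∀ v ∈ B ⊔ B', ∀ e ∈ C[B] ⊓ C[B'], v * e = e * v := fun v hv e he =>
    (H83.centralizer_sup B B').ge he v hv
  have uniq : ∀ v ∈ B ⊔ om B', ∀ v' ∈ B ⊔ om B', ∀ e ∈ C[B] ⊓ C[B'], ∀ e' ∈ C[B] ⊓ C[B'],
      v * e = v' * e' → v = v' ∧ e = e' := fun v hv v' hv' e he e' he' h => by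
    have e1 : v'⁻¹ * v = e' * e⁻¹ := by
      rw [inv_mul_eq_iff_eq_mul, ← mul_assoc, ← h, mul_inv_cancel_right]
    have m : e' * e⁻¹ ∈ C[B] ⊓ C[B'] := mul_mem he' (inv_mem he)
    have m0 : v'⁻¹ * v ∈ B ⊔ om B' := mul_mem (inv_mem hv') hv
    have mB : e' * e⁻¹ ∈ B := (xa.sC n1).le ⟨e1 ▸ m0, m.1⟩
    have := om_cent c.toC0 n1 ((c.le.ax n1).le ⟨mB, centralizer_le_normalizer _ m.2⟩) m.2
    rw [this, inv_mul_eq_one] at e1
    exact ⟨e1.symm, (mul_inv_eq_one.1 this).symm⟩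
  have aB : ∀ j ∈ om B, ∀ v ∈ B ⊔ om B', v * j = j * v := fun j hj v hv =>
    (H83.centralizer_sup B (om B')).ge ⟨fun y hy => c.comm B hB y hy j (om_le B hj),
      fun y hy => (c.le.adc n1.toAd j hj y hy).symm⟩ v hv
  have dec : ∀ g ∈ om B'', g ≠ 1 → ∃ a ∈ om B', ∃ s ∈ B, s ∉ om B ∧ Iv a s ∧
      ∃ e ∈ C[B] ⊓ C[B'], g = a * s * e := fun g hg g1 => by
    obtain ⟨s, hs, s1, cs, iv⟩ := x.s2 g hg g1
    obtain ⟨a, ⟨ha, ia⟩, -⟩ := c.le.ivE n1 s hs s1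
    have t1 : a * g * s ∈ C[B] := mul_mem (xa.same n1 n2 a ha g hg s hs s1 ia iv)
      fun y hy => c.comm B hB y hy s hs
    have t2 : a * g * s ∈ C[om B'] := by
      rw [mul_assoc]
      exact mul_mem (fun y hy => c.comm B' n1.r y (om_le _ hy) a (om_le _ ha)) cs
    obtain ⟨-, i, hi, t3⟩ := c.lb.tl n1 _ t1 (c.la.com B' n1.r t2)
    have iB := om_le B hi
    have t4 : a * g * s * i ∈ C[B] := mul_mem t1 fun y hy => c.comm B hB y hy i iB
    have a2 := ((c.la.mem_om B' n1.r a).1 ha).2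
    have i2 := ((c.la.mem_om B hB i).1 hi).2
    have m : (s * i)⁻¹ ∈ B := inv_mem (mul_mem hs iB)
    refine ⟨a, ha, (s * i)⁻¹, m, fun h => s1 ?_, ?_, _, ⟨t4, t3⟩, ?_⟩
    · exact (mul_mem_cancel_right hi).1 (inv_mem_iff.1 h)
    · rw [Iv] at ia ⊢
      calc a * (s * i)⁻¹ * a⁻¹ = (a * s * a⁻¹ * (a * i * a⁻¹))⁻¹ := by group
        _ = (s⁻¹ * i⁻¹)⁻¹ := by
          rw [ia, ← c.le.adc n1.toAd i hi a ha, mul_inv_cancel_right, inv_eq_of_mul_eq_one_right i2]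
        _ = _ := by rw [inv_inv, mul_inv_rev, inv_inv, inv_inv, c.comm B hB s hs i iB]
    · rw [mul_assoc a, t4 _ m]
      calc g = a * a * g := by rw [a2, one_mul]
        _ = _ := by group
  have mS : ∀ a ∈ om B', ∀ s ∈ B, a * s ∈ B ⊔ om B' := fun a ha s hs =>
    mul_mem (mem_sup_right ha) (mem_sup_left hs)
  have cm : ∀ g ∈ om B'', ∀ g' ∈ om B'', ∀ v ∈ B ⊔ om B', ∀ v' ∈ B ⊔ om B',
      ∀ e ∈ C[B] ⊓ C[B'], ∀ e' ∈ C[B] ⊓ C[B'], g = v * e → g' = v' * e' →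
      v * v' = v' * v ∧ e * e' = e' * e := fun g hg g' hg' v hv v' hv' e he e' he' h h' => by
    refine uniq _ (mul_mem hv hv') _ (mul_mem hv' hv) _ (mul_mem he he') _ (mul_mem he' he) ?_
    have := c.comm B'' n2.r g (om_le _ hg) g' (om_le _ hg')
    rw [h, h'] at this
    calc v * v' * (e * e') = v * (v' * e) * e' := by group
      _ = v * e * (v' * e') := by rw [cE v' (S0 hv') e he]; group
      _ = v' * (e' * v) * e := by rw [this]; group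
      _ = _ := by rw [← cE v (S0 hv) e' he']; group
  obtain ⟨τ, hτ, τ1, τ2, -, fpf⟩ := c.lb.tor n1 (c.c4 B hB).2.ge
  have cj1 : ∀ {P : Subgroup G}, τ ∈ N[P] → ∀ y ∈ P, τ * y * τ⁻¹ ∈ P := fun h y hy =>
    (mem_normalizer_iff.1 h y).1 hy
  have key : ∀ g ∈ om B'', g ≠ 1 → ∃ g4 ∈ om B'', g4 ≠ 1 ∧ g4 ≠ g ∧ g⁻¹ * g4 ∈ B ⊔ om B' := by
    intro g0 hg0 g01
    have tau : ∀ a s e : G, e ∈ C[B] ⊓ C[B'] →
        τ * (a * s * e) * τ⁻¹ = τ * a * τ⁻¹ * (τ * s * τ⁻¹) * e := fun a s e he => by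
      calc _ = τ * a * τ⁻¹ * (τ * s * τ⁻¹) * (τ * e * τ⁻¹) := by group
        _ = _ := by rw [cE τ hτ e he, mul_inv_cancel_right]
    have cA : ∀ g ∈ om B'', τ * g * τ⁻¹ ∈ C[om B''] := fun g hg g' hg' => by
      by_cases g1 : g = 1
      · simp [g1]
      by_cases g1' : g' = 1
      · simp [g1']
      obtain ⟨a, ha, s, hs, s1, iv, e, he, h⟩ := dec g hg g1
      obtain ⟨a', ha', s', hs', -, -, e', he', h'⟩ := dec g' hg' g1'
      have ms := cj1 τ1 s hs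
      have ns : τ * s * τ⁻¹ ∉ om B := fun m => s1 ((mem_normalizer_iff.1 (norm_om τ1) s).2 m)
      obtain ⟨g3, ⟨hg3, i3⟩, -⟩ := c.le.ivE n2 _ ms ns
      have g31 : g3 ≠ 1 := fun e => ns ((c.la.mem_om B hB _).2 ⟨ms, by
        rw [Iv, e, one_mul, inv_one, mul_one] at i3
        exact mul_eq_one_iff_eq_inv.2 i3⟩)
      obtain ⟨a3, ha3, s3, hs3, s31, iv3, e3, he3, h3⟩ := dec g3 hg3 g31
      have i4 : Iv a3 (τ * s * τ⁻¹) := by
        rw [Iv, h3] at i3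
        rw [Iv, ← i3]
        generalize τ * s * τ⁻¹ = y at ms
        calc a3 * y * a3⁻¹ = a3 * (y * s3) * s3⁻¹ * a3⁻¹ := by group
          _ = a3 * s3 * (y * e3) * e3⁻¹ * s3⁻¹ * a3⁻¹ := by rw [c.comm B hB y ms s3 hs3]; group
          _ = _ := by rw [he3.1 y ms]; group
      have ea : τ * a * τ⁻¹ = a3 := (c.le.ivE n1 _ ms ns).unique
        ⟨cj1 (norm_om τ2) a ha, iv.cj τ⟩ ⟨ha3, i4⟩
      have j : s3⁻¹ * (τ * s * τ⁻¹) ∈ om B := by
        have := mul_mem (inv_mem (c.le.sq n1 s3 hs3)) (xa.one n1 a3 ha3 s3 hs3 s31 _ ms ns iv3 i4)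
        rwa [show (s3 * s3)⁻¹ * (s3 * (τ * s * τ⁻¹)) = s3⁻¹ * (τ * s * τ⁻¹) by group] at this
      have c1 := (cm g3 hg3 g' hg' _ (mS a3 ha3 s3 hs3) _ (mS a' ha' s' hs') e3 he3 e' he' h3 h').1
      have c2 := (cm g hg g' hg' _ (mS a ha s hs) _ (mS a' ha' s' hs') e he e' he' h h').2
      rw [h, tau a s e he, ea, h', show a3 * (τ * s * τ⁻¹) = a3 * s3 * (s3⁻¹ * (τ * s * τ⁻¹)) by group]
      have m3 := mS a3 ha3 s3 hs3
      have m' := mS a' ha' s' hs'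
      generalize s3⁻¹ * (τ * s * τ⁻¹) = j' at j
      generalize a3 * s3 = v3 at c1 m3
      generalize a' * s' = v' at c1 m'
      have d1 : Commute v' v3 := c1.symm
      have d2 : Commute v' j' := aB j' j v' m'
      have d3 : Commute v' e := cE v' (S0 m') e he
      have d4 : Commute e' v3 := (cE v3 (S0 m3) e' he').symm
      have d5 : Commute e' j' := (cE j' (mem_sup_left (om_le B j)) e' he').symm
      have d6 : Commute e' e := c2.symm
      exact (((d1.mul_right d2).mul_right d3).mul_left ((d4.mul_right d5).mul_right d6)).eq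
    have g2 : τ * g0 * τ⁻¹ ≠ 1 := fun e => g01 (by simpa using e)
    have mo : τ * g0 * τ⁻¹ ∈ om (cj τ B'') := om_cj τ B'' ▸ H83.conj_mem_cj hg0
    obtain ⟨j, hj, g4, hg4, e4⟩ : ∃ j ∈ om B, ∃ g4 ∈ om B'', τ * g0 * τ⁻¹ = j * g4 := by
      rcases ad_of (c.conj B'' n2.r τ) n2.r (om_le _ mo) g2 (c.la.com B'' n2.r (cA g0 hg0)) with e | e
      · exact ⟨1, one_mem _, _, e ▸ mo, (one_mul _).symm⟩
      · obtain ⟨y, hy, e'⟩ := xa.tri n2 (c.la.symm (n2.toAd.cjN c.toTB τ1)) e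
        rw [e', om_cj] at mo
        obtain ⟨g4, hg4, e4⟩ := mo
        refine ⟨_, c.le.brk n2.toAd y hy g4 (mem_sup_right hg4), g4, hg4, ?_⟩
        rw [← e4, commutatorElement_def, inv_mul_cancel_right]
        rfl
    have g41 : g4 ≠ 1 := fun e => by
      rw [e, mul_one] at e4
      have : g0 ∈ om B := (mem_normalizer_iff.1 (norm_om τ1) g0).2 (e4 ▸ hj)
      exact n2.ne (c.la.eq B hB B'' n2.r g0 (om_le _ this) (om_le _ hg0) g01)
    obtain ⟨a, ha, s, hs, s1, iv, e, he, h⟩ := dec g0 hg0 g01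
    obtain ⟨a', ha', s', hs', -, -, e', he', h'⟩ := dec g4 hg4 g41
    have ma := cj1 (norm_om τ2) a ha
    have ms := cj1 τ1 s hs
    rw [h, tau a s e he, h', ← mul_assoc j] at e4
    obtain ⟨u1, u2⟩ := uniq _ (mS _ ma _ ms) _ (mul_mem (mem_sup_left (om_le B hj)) (mS a' ha' s' hs'))
      e he e' he' e4
    refine ⟨g4, hg4, g41, fun e5 => ?_, ?_⟩
    · rw [h, h'] at e5
      rw [(uniq _ (mS a' ha' s' hs') _ (mS a ha s hs) e' he' e he e5).1, ← mul_assoc j,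
        c.le.adc n1.toAd j hj a ha] at u1
      have e6 : a⁻¹ * (τ * a * τ⁻¹) = j * s * (τ * s * τ⁻¹)⁻¹ := by
        rw [eq_mul_inv_iff_mul_eq, mul_assoc, u1]; group
      have m1 : j * s * (τ * s * τ⁻¹)⁻¹ ∈ B := mul_mem (mul_mem (om_le B hj) hs) (inv_mem ms)
      have : a⁻¹ * (τ * a * τ⁻¹) ∈ B ⊓ B' := ⟨e6 ▸ m1, om_le _ (mul_mem (inv_mem ha) ma)⟩
      rw [c.ti B hB B' n1.r n1.ne, mem_bot, inv_mul_eq_one, eq_mul_inv_iff_mul_eq] at this
      have a1 := fpf a (mem_sup_right ha) this.symm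
      rw [Iv, a1, one_mul, inv_one, mul_one] at iv
      exact s1 ((c.la.mem_om B hB s).2 ⟨hs, mul_eq_one_iff_eq_inv.2 iv⟩)
    · have m := mul_mem (inv_mem (mS a ha s hs)) (mS a' ha' s' hs')
      rw [h, h', ← u2, show (a * s * e)⁻¹ * (a' * s' * e) = e⁻¹ * ((a * s)⁻¹ * (a' * s') * e) by group,
        cE _ (S0 m) e he, inv_mul_cancel_left]
      exact m
  have c4 := (c.c4 B'' n2.r).1
  obtain ⟨g, hg, g1⟩ : ∃ g ∈ om B'', g ≠ 1 := by
    by_contra n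
    push Not at n
    rw [(eq_bot_iff_forall _).2 n, card_bot] at c4
    omega
  obtain ⟨g4, hg4, -, ne, m⟩ := key g hg g1
  have h1 : g⁻¹ * g4 ≠ 1 := fun e => ne (inv_mul_eq_one.1 e).symm
  have hm := mul_mem (inv_mem hg) hg4
  obtain ⟨h4, hh4, h41, ne', m'⟩ := key _ hm h1
  exact (eq_of_three c4 (inf_le_left : om B'' ⊓ (B ⊔ om B') ≤ _) ⟨hm, m⟩
    ⟨hh4, (mul_mem_cancel_left (inv_mem m)).1 m'⟩ h1 h41 ne'.symm).trans inf_le_right

end Cfsg.Agent.H92.TB
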