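import Cfsg.Agent.H92.W3C

/-!
Width three: coordinates. Vectors of a six-dimensional space with a symplectic basis are coded
by the numbers below `64`.
-/

set_option autoImplicit false

namespace Cfsg.Agent.H92.W3

open Subgroup Cfsg.Agent.H49 Cfsg.Agent.H69.XV Cfsg.Agent.H69.XV.VD Cfsg.Agent.H92.Lx

universe u

/-- parity of the binary digits of a number below `64` -/
def par (n : ℕ) : ℕ := (0x6996966996696996 >>> n) % 2

/-- the symplectic form on codes -/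
def BN (a b : ℕ) : ℕ := par (a &&& (((b &&& 21) <<< 1) ||| ((b >>> 1) &&& 21)))

/-- the quadratic form on codes -/
def qN (f n : ℕ) : ℕ := par ((n &&& (n >>> 1) &&& 21) ^^^ (n &&& f))

/-- the Siegel transformation on codes -/
def EN (f s w v : ℕ) : ℕ := v ^^^ (BN v s * w) ^^^ ((BN v w ^^^ (qN f w &&& BN v s)) * s)

/-- binary digits -/
def bt (n i : ℕ) : ZMod 2 := if n.testBit i then 1 else 0

theorem bt_xor (m n i : ℕ) : bt (m ^^^ n) i = bt m i + bt n i := by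
  simp only [bt, Nat.testBit_xor]
  cases m.testBit i <;> cases n.testBit i <;> decide

theorem par_lt (n : ℕ) : par n < 2 := Nat.mod_lt _ (by decide)

theorem BN_cast : ∀ m < 64, ∀ n < 64, (BN m n : ZMod 2) = bt m 0 * bt n 1 + bt m 1 * bt n 0 +
    bt m 2 * bt n 3 + bt m 3 * bt n 2 + bt m 4 * bt n 5 + bt m 5 * bt n 4 := by
  decide +kernel

theorem qN_cast : ∀ f < 64, ∀ n < 64, (qN f n : ZMod 2) = bt n 0 * bt f 0 + bt n 1 * bt f 1 +
    bt n 2 * bt f 2 + bt n 3 * bt f 3 + bt n 4 * bt f 4 + bt n 5 * bt f 5 +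
    (bt n 0 * bt n 1 + bt n 2 * bt n 3 + bt n 4 * bt n 5) := by
  decide +kernel

theorem BN_nondeg : ∀ m < 64, (∀ j < 64, BN m j = 0) → m = 0 := by
  decide +kernel

theorem BN_lt (a b : ℕ) : BN a b < 2 := par_lt _

theorem qN_lt (f n : ℕ) : qN f n < 2 := par_lt _

theorem xor_lt {a b : ℕ} (ha : a < 64) (hb : b < 64) : a ^^^ b < 64 :=
  Nat.xor_lt_two_pow (n := 6) ha hb

theorem cast_eq_zero {a : ℕ} (h : a < 2) : (a : ZMod 2) = 0 ↔ a = 0 := by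
  interval_cases a <;> decide

theorem cast_eq_one {a : ℕ} (h : a < 2) : (a : ZMod 2) = 1 ↔ a = 1 := by
  interval_cases a <;> decide

theorem EN_lt {f s w v : ℕ} (hs : s < 64) (hw : w < 64) (hv : v < 64) : EN f s w v < 64 := by
  have h1 := par_lt (v &&& (((s &&& 21) <<< 1) ||| ((s >>> 1) &&& 21)))
  have h2 := par_lt (v &&& (((w &&& 21) <<< 1) ||| ((w >>> 1) &&& 21)))
  have h3 := par_lt ((w &&& (w >>> 1) &&& 21) ^^^ (w &&& f))
  unfold EN BN qN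
  generalize par _ = a at h1 ⊢
  generalize par _ = b at h2 ⊢
  generalize par _ = c at h3 ⊢
  refine xor_lt (xor_lt hv ?_) ?_
  · interval_cases a <;> simp [hw]
  · interval_cases a <;> interval_cases b <;> interval_cases c <;> simp [hs]

variable {G : Type u} [Group G] {V : Type*} [AddCommGroup V] [Module (ZMod 2) V] {z : G}
  {Q : Subgroup G}

/-- the vector with a given code -/
def ev (b₀ b₁ b₂ b₃ b₄ b₅ : V) (n : ℕ) : V :=
  bt n 0 • b₀ + bt n 1 • b₁ + bt n 2 • b₂ + bt n 3 • b₃ + bt n 4 • b₄ + bt n 5 • b₅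

/-- a coding of the vectors by numbers -/
structure Cod (d : VD Q z V) (f : ℕ) (e : ℕ → V) : Prop where
  xor : ∀ m n, e (m ^^^ n) = e m + e n
  B : ∀ {m n}, m < 64 → n < 64 → d.B (e m) (e n) = BN m n
  q : ∀ {n}, n < 64 → d.q (e n) = qN f n
  surj : ∀ v, ∃ n < 64, e n = v

theorem ev_xor (b₀ b₁ b₂ b₃ b₄ b₅ : V) (m n : ℕ) : ev b₀ b₁ b₂ b₃ b₄ b₅ (m ^^^ n) =
    ev b₀ b₁ b₂ b₃ b₄ b₅ m + ev b₀ b₁ b₂ b₃ b₄ b₅ n := by
  simp only [ev, bt_xor, add_smul]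
  abel

theorem inj_of {d : VD Q z V} {e : ℕ → V} (hx : ∀ m n, e (m ^^^ n) = e m + e n)
    (hB : ∀ {m n}, m < 64 → n < 64 → d.B (e m) (e n) = BN m n) {m n : ℕ} (hm : m < 64)
    (hn : n < 64) (h : e m = e n) : m = n := by
  have h0 : e (m ^^^ n) = 0 := by rw [hx, h, add_self]
  have k : ∀ j < 64, BN (m ^^^ n) j = 0 := fun j hj => by
    rw [← cast_eq_zero (BN_lt _ _)]
    have := hB (xor_lt hm hn) hj
    rw [h0] at this
    simpa using this.symm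
  exact Nat.xor_eq_zero_iff.1 (BN_nondeg _ (xor_lt hm hn) k)

/-- a symplectic basis -/
structure SB (d : VD Q z V) (b₀ b₁ b₂ b₃ b₄ b₅ : V) : Prop where
  h01 : d.B b₀ b₁ = 1
  h02 : d.B b₀ b₂ = 0
  h03 : d.B b₀ b₃ = 0
  h04 : d.B b₀ b₄ = 0
  h05 : d.B b₀ b₅ = 0
  h12 : d.B b₁ b₂ = 0
  h13 : d.B b₁ b₃ = 0
  h14 : d.B b₁ b₄ = 0
  h15 : d.B b₁ b₅ = 0
  h23 : d.B b₂ b₃ = 1
  h24 : d.B b₂ b₄ = 0
  h25 : d.B b₂ b₅ = 0
  h34 : d.B b₃ b₄ = 0
  h35 : d.B b₃ b₅ = 0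
  h45 : d.B b₄ b₅ = 1

theorem SB.cod {d : VD Q z V} {b₀ b₁ b₂ b₃ b₄ b₅ : V} (h : SB d b₀ b₁ b₂ b₃ b₄ b₅)
    (h64 : Nat.card V = 64) {f : ℕ} (hf : f < 64) (q₀ : d.q b₀ = bt f 0) (q₁ : d.q b₁ = bt f 1)
    (q₂ : d.q b₂ = bt f 2) (q₃ : d.q b₃ = bt f 3) (q₄ : d.q b₄ = bt f 4) (q₅ : d.q b₅ = bt f 5) :
    Cod d f (ev b₀ b₁ b₂ b₃ b₄ b₅) := by
  have hB : ∀ {m n}, m < 64 → n < 64 →
      d.B (ev b₀ b₁ b₂ b₃ b₄ b₅ m) (ev b₀ b₁ b₂ b₃ b₄ b₅ n) = BN m n := fun hm hn => by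
    rw [BN_cast _ hm _ hn]
    simp only [ev, B_addl, B_addr, B_smull, B_smulr, d.B_self, d.B_symm b₁ b₀, d.B_symm b₂ b₀,
      d.B_symm b₃ b₀, d.B_symm b₄ b₀, d.B_symm b₅ b₀, d.B_symm b₂ b₁, d.B_symm b₃ b₁,
      d.B_symm b₄ b₁, d.B_symm b₅ b₁, d.B_symm b₃ b₂, d.B_symm b₄ b₂, d.B_symm b₅ b₂,
      d.B_symm b₄ b₃, d.B_symm b₅ b₃, d.B_symm b₅ b₄, h.h01, h.h02, h.h03, h.h04, h.h05, h.h12,
      h.h13, h.h14, h.h15, h.h23, h.h24, h.h25, h.h34, h.h35, h.h45]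
    ring
  refine ⟨ev_xor _ _ _ _ _ _, hB, fun hn => ?_, fun v => ?_⟩
  · rw [qN_cast _ hf _ hn]
    simp only [ev, d.q_add, q_smul, B_addl, B_smull, B_smulr, h.h01, h.h02, h.h03, h.h04, h.h05,
      h.h12, h.h13, h.h14, h.h15, h.h23, h.h24, h.h25, h.h34, h.h35, h.h45, q₀, q₁, q₂, q₃, q₄,
      q₅]
    ring
  · have : Finite V := Nat.finite_of_card_ne_zero (by omega)
    let g : Fin 64 → V := fun i => ev b₀ b₁ b₂ b₃ b₄ b₅ i
    have hg : Function.Injective g := fun i j e =>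
      Fin.ext (inj_of (ev_xor _ _ _ _ _ _) hB i.2 j.2 e)
    obtain ⟨i, hi⟩ := (hg.bijective_of_nat_card_le (by simp [h64])).2 v
    exact ⟨i, i.2, hi⟩

theorem SB.ext {d : VD Q z V} {b₀ b₁ b₂ b₃ b₄ b₅ : V} (h : SB d b₀ b₁ b₂ b₃ b₄ b₅)
    (h64 : Nat.card V = 64) {v : V} (k₀ : d.B v b₀ = 0) (k₁ : d.B v b₁ = 0) (k₂ : d.B v b₂ = 0)
    (k₃ : d.B v b₃ = 0) (k₄ : d.B v b₄ = 0) (k₅ : d.B v b₅ = 0) : v = 0 := by
  obtain ⟨f, hf, q₀, q₁, q₂, q₃, q₄, q₅⟩ : ∃ f < 64, d.q b₀ = bt f 0 ∧ d.q b₁ = bt f 1 ∧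
      d.q b₂ = bt f 2 ∧ d.q b₃ = bt f 3 ∧ d.q b₄ = bt f 4 ∧ d.q b₅ = bt f 5 := by
    generalize d.q b₀ = a₀, d.q b₁ = a₁, d.q b₂ = a₂, d.q b₃ = a₃, d.q b₄ = a₄, d.q b₅ = a₅
    revert a₀ a₁ a₂ a₃ a₄ a₅
    set_option synthInstance.maxSize 1000 in decide +kernel
  refine d.nondeg fun w => ?_
  obtain ⟨n, -, rfl⟩ := (h.cod h64 hf q₀ q₁ q₂ q₃ q₄ q₅).surj w
  simp only [ev, B_addr, B_smulr, k₀, k₁, k₂, k₃, k₄, k₅]
  ring

/-- the span of a list of vectors -/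
def sp (l : List V) : Submodule (ZMod 2) V := Submodule.span (ZMod 2) {x | x ∈ l}

theorem sp_nil {v : V} : v ∈ sp ([] : List V) ↔ v = 0 := by simp [sp]

theorem sp_cons {x v : V} {l : List V} : v ∈ sp (x :: l) ↔ v ∈ sp l ∨ v + x ∈ sp l := by
  have : {y | y ∈ x :: l} = insert x {y | y ∈ l} := by ext; simp
  rw [sp, this, Submodule.mem_span_insert]
  constructor
  · rintro ⟨a, w, hw, rfl⟩
    rcases z2 a with rfl | rfl
    · exact Or.inl (by rwa [zero_smul, zero_add])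
    · exact Or.inr (by rwa [one_smul, add_comm x, add_add_cancel'])
  · rintro (h | h)
    · exact ⟨0, v, h, by simp⟩
    · exact ⟨1, _, h, by ch2⟩

theorem mem_sp {x : V} {l : List V} (h : x ∈ l) : x ∈ sp l := Submodule.subset_span h

theorem sp_le {l : List V} {W : Submodule (ZMod 2) V} (h : ∀ x ∈ l, x ∈ W) : sp l ≤ W :=
  Submodule.span_le.2 h

theorem sp_ind {l : List V} {R : V → Prop} (h0 : R 0) (hl : ∀ x ∈ l, R x)
    (ha : ∀ u v, R u → R v → R (u + v)) {v : V} (hv : v ∈ sp l) : R v :=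
  span_ind h0 hl ha hv

/-- the list of the elements of the span -/
def spL : List V → List V
  | [] => [0]
  | x :: l => spL l ++ (spL l).map (· + x)

theorem mem_spL {l : List V} : ∀ {v : V}, v ∈ sp l → v ∈ spL l := by
  induction l with
  | nil => intro v h; simpa [spL] using sp_nil.1 h
  | cons x l ih =>
    intro v h
    rcases sp_cons.1 h with h | h
    · exact List.mem_append_left _ (ih h)
    · exact List.mem_append_right _ (List.mem_map.2 ⟨_, ih h, add_add_cancel' _ _⟩)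

theorem length_spL (l : List V) : (spL l).length = 2 ^ l.length := by
  induction l with
  | nil => rfl
  | cons x l ih => simp [spL, ih, pow_succ, mul_two]

theorem card_sp (l : List V) : Nat.card (sp l) ≤ 2 ^ l.length :=
  length_spL l ▸ card_le_of_subset_list _ _ fun _ => mem_spL

/-- the span of a list of codes -/
def spn : List ℕ → List ℕ
  | [] => [0]
  | x :: l => spn l ++ (spn l).map (· ^^^ x)

theorem spn_lt {l : List ℕ} (hl : ∀ x ∈ l, x < 64) : ∀ v ∈ spn l, v < 64 := by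
  induction l with
  | nil => simp [spn]
  | cons x l ih =>
    intro v hv
    have ih' := ih fun y hy => hl y (List.mem_cons_of_mem _ hy)
    rcases List.mem_append.1 hv with h | h
    · exact ih' v h
    · obtain ⟨w, hw, rfl⟩ := List.mem_map.1 h
      exact xor_lt (ih' w hw) (hl x List.mem_cons_self)

namespace Cod

variable {d : VD Q z V} {f : ℕ} {e : ℕ → V} (h : Cod d f e)
include h

theorem zero : e 0 = 0 := by
  have := h.xor 0 0
  rwa [add_self] at this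

theorem inj {m n : ℕ} (hm : m < 64) (hn : n < 64) (k : e m = e n) : m = n :=
  inj_of h.xor h.B hm hn k

theorem B0 {m n : ℕ} (hm : m < 64) (hn : n < 64) : d.B (e m) (e n) = 0 ↔ BN m n = 0 := by
  rw [h.B hm hn, cast_eq_zero (BN_lt _ _)]

theorem B1 {m n : ℕ} (hm : m < 64) (hn : n < 64) : d.B (e m) (e n) = 1 ↔ BN m n = 1 := by
  rw [h.B hm hn, cast_eq_one (BN_lt _ _)]

theorem q0 {n : ℕ} (hn : n < 64) : d.q (e n) = 0 ↔ qN f n = 0 := by
  rw [h.q hn, cast_eq_zero (qN_lt _ _)]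

theorem ne0 {n : ℕ} (hn : n < 64) : e n ≠ 0 ↔ n ≠ 0 := by
  rw [← h.zero]
  exact not_congr ⟨h.inj hn (by decide), fun k => by rw [k]⟩

theorem mul {a : ℕ} (ha : a < 2) (w : ℕ) : e (a * w) = (a : ZMod 2) • e w := by
  interval_cases a <;> simp [h.zero]

theorem sg {s w v : ℕ} (hs : s < 64) (hw : w < 64) (hv : v < 64) {a : G}
    (k : Sg d (e s) (e w) a) : d.ρ a (e v) = e (EN f s w v) := by
  rw [k, h.B hv hs, h.B hv hw, h.q hw, EN, h.xor, h.xor]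
  have h1 : BN v s < 2 := par_lt _
  have h2 : BN v w < 2 := par_lt _
  have h3 : qN f w < 2 := par_lt _
  generalize BN v s = x at h1 ⊢
  generalize BN v w = y at h2 ⊢
  generalize qN f w = c at h3 ⊢
  interval_cases x <;> interval_cases y <;> interval_cases c <;> simp [h.zero, add_self]

theorem mem_spn {l : List ℕ} (hl : ∀ x ∈ l, x < 64) :
    ∀ {v : ℕ}, v < 64 → e v ∈ sp (l.map e) → v ∈ spn l := by
  induction l with
  | nil =>
    intro v hv k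
    rw [List.map_nil, sp_nil, ← h.zero] at k
    simp [spn, h.inj hv (by decide) k]
  | cons x l ih =>
    intro v hv k
    have ih' := @ih fun y hy => hl y (List.mem_cons_of_mem _ hy)
    rcases sp_cons.1 k with k | k
    · exact List.mem_append_left _ (ih' hv k)
    · rw [← h.xor] at k
      exact List.mem_append_right _ (List.mem_map.2
        ⟨_, ih' (xor_lt hv (hl x List.mem_cons_self)) k, by simp [Nat.xor_assoc]⟩)

theorem mem_sp' {l : List ℕ} : ∀ {v : ℕ}, v ∈ spn l → e v ∈ sp (l.map e) := by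
  induction l with
  | nil => intro v k; simp only [spn, List.mem_singleton] at k; rw [k, h.zero]; exact zero_mem _
  | cons x l ih =>
    intro v k
    rw [List.map_cons, sp_cons]
    rcases List.mem_append.1 k with k | k
    · exact Or.inl (ih k)
    · obtain ⟨w, hw, rfl⟩ := List.mem_map.1 k
      exact Or.inr (by rw [h.xor, add_add_cancel']; exact ih hw)

end Cod

theorem ord_aux : ∀ a < 64, ∀ b < 64, a ≠ 0 → b ≠ 0 → a ≠ b →
    (a < b ∧ b < a ^^^ b) ∨ (b < a ∧ a < b ^^^ a) ∨ (a < a ^^^ b ∧ a ^^^ b < a ^^^ (a ^^^ b)) ∨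
    (a ^^^ b < a ∧ a < (a ^^^ b) ^^^ a) ∨ (b < b ^^^ a ∧ b ^^^ a < b ^^^ (b ^^^ a)) ∨
    (b ^^^ a < b ∧ b < (b ^^^ a) ^^^ b) := by
  set_option synthInstance.maxSize 1000 in decide +kernel

theorem exists_ord {R : ℕ → ℕ → Prop} (hs : ∀ a b, R a b → R b a)
    (hx : ∀ a b, R a b → R a (a ^^^ b)) {a b : ℕ} (h : R a b) (ha : a < 64) (hb : b < 64)
    (a0 : a ≠ 0) (b0 : b ≠ 0) (ab : a ≠ b) : ∃ u v, R u v ∧ u < v ∧ v < u ^^^ v := by
  rcases ord_aux a ha b hb a0 b0 ab with k | k | k | k | k | k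
  exacts [⟨_, _, h, k⟩, ⟨_, _, hs _ _ h, k⟩, ⟨_, _, hx _ _ h, k⟩, ⟨_, _, hs _ _ (hx _ _ h), k⟩,
    ⟨_, _, hx _ _ (hs _ _ h), k⟩, ⟨_, _, hs _ _ (hx _ _ (hs _ _ h)), k⟩]

end Cfsg.Agent.H92.W3
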