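import Cfsg.Agent.H92.W3E

/-!
Width three: if `Q ∩ Q_t` is larger than `⟨z, t⟩`, the points form two Lagrangian subspaces.
-/

set_option autoImplicit false

namespace Cfsg.Agent.H92.W3

open Subgroup Cfsg.Agent.H49 Cfsg.Agent.H69.XV Cfsg.Agent.H69.XV.VD Cfsg.Agent.H92.Lx

universe u

variable {G : Type u} [Group G] {V : Type*} [AddCommGroup V] [Module (ZMod 2) V] {z : G}
  {Q : Subgroup G} {d : VD Q z V} {P : V → Prop} {U X : V → V → Prop}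

theorem getD_prop {α : Type*} {R : α → Prop} {l : List α} {a : α} (hl : ∀ x ∈ l, R x) (ha : R a)
    (i : ℕ) : R (l.getD i a) := by
  rw [List.getD_eq_getElem?_getD]
  rcases h : l[i]? with _ | x
  exacts [ha, hl x (List.mem_of_getElem? h)]

/-- the coded triple describes the subspaces at a point -/
structure Val (e : ℕ → V) (P : V → Prop) (U X : V → V → Prop) (τ : Tri) : Prop where
  lt : τ.1 < 64
  ltU : ∀ u ∈ τ.2.1, u < 64
  ltX : ∀ x ∈ τ.2.2, x < 64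
  hP : P (e τ.1)
  hU : ∀ u ∈ τ.2.1, U (e τ.1) (e u)
  hX : ∀ x ∈ τ.2.2, X (e τ.1) (e x)
  spU : ∀ v, U (e τ.1) v → v ∈ sp ((τ.1 :: τ.2.1).map e)
  spX : ∀ v, X (e τ.1) v → v ∈ sp ((τ.1 :: τ.2.2).map e)

/-- three independent vectors in `U s` -/
def D3 (U : V → V → Prop) (s : V) : Prop :=
  ∃ u v, U s u ∧ U s v ∧ u ≠ 0 ∧ u ≠ s ∧ v ≠ 0 ∧ v ≠ s ∧ v ≠ u ∧ v ≠ u + s

theorem mem_sp2 {a b v : V} : v ∈ sp [a, b] ↔ v = 0 ∨ v = b ∨ v = a ∨ v = a + b := by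
  simp only [sp_cons, sp_nil, H69.XV.add_eq_zero, add_assoc, or_assoc]

namespace Sys

variable (S : Sys d P U X)
include S

theorem BU {s u v : V} (hu : U s u) (hv : U s v) : d.B u v = 0 := by
  have := S.Uq (S.Uadd hu hv)
  rwa [d.q_add, S.Uq hu, S.Uq hv, zero_add, zero_add] at this

theorem U0 {s : V} (hs : P s) : U s 0 := add_self s ▸ S.Uadd (S.Us hs) (S.Us hs)

theorem X0 {s : V} (hs : P s) : X s 0 := add_self s ▸ S.Xadd (S.Xs hs) (S.Xs hs)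

theorem Xsmul {s x : V} (hs : P s) (hx : X s x) (c : ZMod 2) : X s (c • x) := by
  rcases z2 c with rfl | rfl
  exacts [(zero_smul (ZMod 2) x).symm ▸ S.X0 hs, (one_smul (ZMod 2) x).symm ▸ hx]

theorem adj {s s' u : V} (hs : P s) (h1 : d.B s s' = 1) (hu : U s u) :
    ∃ u', U s u' ∧ d.B u' s' = 0 ∧ (u' = u ∨ u' = u + s) := by
  rcases z2 (d.B u s') with h | h
  · exact ⟨u, hu, h, Or.inl rfl⟩
  · exact ⟨_, S.Uadd hu (S.Us hs), by rw [B_addl, h, h1]; decide, Or.inr rfl⟩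

theorem adjX {s s' y : V} (hs : P s) (h1 : d.B s s' = 1) (hy : d.B y s = 0) :
    ∃ x u, X s x ∧ U s u ∧ d.B x s' = 0 ∧ x = y + u := by
  obtain ⟨u, x, hu, hx, rfl⟩ := S.sum hs hy
  rcases z2 (d.B x s') with h | h
  · exact ⟨x, u, hx, hu, h, by ch2⟩
  · exact ⟨_, _, S.Xadd hx (S.Xs hs), S.Uadd hu (S.Us hs), by rw [B_addl, h, h1]; decide, by ch2⟩

theorem d3 {s s' : V} (hs : P s) (hs' : P s') (h : D3 U s) : D3 U s' := by
  obtain ⟨c, hc, rfl⟩ := S.trans hs hs'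
  obtain ⟨u, v, h1, h2, h3, h4, h5, h6, h7, h8⟩ := h
  exact ⟨_, _, S.Uρ hc h1, S.Uρ hc h2, ρ_ne_zero hc h3, mt (d.ρ_inj hc) h4, ρ_ne_zero hc h5,
    mt (d.ρ_inj hc) h6, mt (d.ρ_inj hc) h7, by rw [← map_add]; exact mt (d.ρ_inj hc) h8⟩

theorem d3' {s s' : V} (hs : P s) (h1 : d.B s s' = 1) (h : D3 U s) : ∃ u v, U s u ∧ U s v ∧
    d.B u s' = 0 ∧ d.B v s' = 0 ∧ u ≠ 0 ∧ v ≠ 0 ∧ u ≠ v := by
  obtain ⟨u, v, k1, k2, k3, k4, k5, k6, k7, k8⟩ := h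
  obtain ⟨u', a1, a2, a3⟩ := S.adj hs h1 k1
  obtain ⟨v', b1, b2, b3⟩ := S.adj hs h1 k2
  refine ⟨u', v', a1, b1, a2, b2, ?_, ?_, ?_⟩
  · rcases a3 with rfl | rfl
    exacts [k3, mt H69.XV.add_eq_zero.1 k4]
  · rcases b3 with rfl | rfl
    exacts [k5, mt H69.XV.add_eq_zero.1 k6]
  · rcases a3 with rfl | rfl <;> rcases b3 with rfl | rfl
    · exact k7.symm
    · exact fun e => k8 (by rw [e]; ch2)
    · exact k8.symm
    · exact fun e => k7 (add_right_cancel e).symm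

theorem d2 {t s s' u : V} (ht : P t) (hu : U t u) (u0 : u ≠ 0) (ut : u ≠ t) (hn : ¬ D3 U t)
    (hs : P s) (h1 : d.B s s' = 1) :
    ∃ u, U s u ∧ d.B u s' = 0 ∧ u ≠ 0 ∧ ∀ v, U s v → v ∈ sp [s, u] := by
  have hn' := mt (S.d3 hs ht) hn
  obtain ⟨c, hc, rfl⟩ := S.trans ht hs
  obtain ⟨u', a1, a2, a3⟩ := S.adj hs h1 (S.Uρ hc hu)
  have k1 := ρ_ne_zero (d := d) hc u0
  have k2 : d.ρ c u ≠ d.ρ c t := mt (d.ρ_inj hc) ut
  have k3 : u' ≠ 0 ∧ u' ≠ d.ρ c t := by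
    rcases a3 with rfl | rfl
    exacts [⟨k1, k2⟩, ⟨mt H69.XV.add_eq_zero.1 k2, fun e => k1 (by simpa using e)⟩]
  refine ⟨u', a1, a2, k3.1, fun v hv => mem_sp2.2 ?_⟩
  by_contra hc
  simp only [not_or] at hc
  exact hn' ⟨u', v, a1, hv, k3.1, k3.2, hc.1, hc.2.2.1, hc.2.1, add_comm u' _ ▸ hc.2.2.2⟩

variable [Finite G]

theorem dual {s s' u v : V} (hs : P s) (h1 : d.B s s' = 1) (hu : U s u) (hv : U s v)
    (us : d.B u s' = 0) (vs : d.B v s' = 0) (u0 : u ≠ 0) (uv : u ≠ v) :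
    ∃ x, X s x ∧ d.B x s' = 0 ∧ d.B u x = 1 ∧ d.B v x = 0 := by
  obtain ⟨y, y1, y2⟩ := exists_sep (d := d) (W := sp [s, v]) (v := u) (by
    rw [mem_sp2]
    rintro (e | e | e | e)
    · exact u0 e
    · exact uv e
    · rw [e, h1] at us; exact one_ne_zero us
    · rw [e, B_addl, h1, vs] at us; exact absurd us (by decide))
  obtain ⟨x, w, hx, hw, k, rfl⟩ := S.adjX hs h1 (y := y)
    (by rw [d.B_symm]; exact y1 _ (mem_sp (by simp)))
  refine ⟨_, hx, k, ?_, ?_⟩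
  · rw [B_addr, S.BU hu hw, d.B_symm, z2_ne y2, add_zero]
  · rw [B_addr, S.BU hv hw, y1 _ (mem_sp (by simp)), add_zero]

theorem nf3 (h64 : Nat.card V = 64) {s s' u v : V} (hs : P s) (h1 : d.B s s' = 1) (hu : U s u)
    (hv : U s v) (us : d.B u s' = 0) (vs : d.B v s' = 0) (u0 : u ≠ 0) (v0 : v ≠ 0) (uv : u ≠ v) :
    ∃ x y, X s x ∧ X s y ∧ d.B x s' = 0 ∧ d.B y s' = 0 ∧ d.B u x = 1 ∧ d.B v x = 0 ∧
      d.B u y = 0 ∧ d.B v y = 1 ∧ (∀ w, U s w → w ∈ sp [s, u, v]) ∧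
      ∀ w, X s w → w ∈ sp [s, x, y] := by
  obtain ⟨x, x1, x2, x3, x4⟩ := S.dual hs h1 hu hv us vs u0 uv
  obtain ⟨y, y1, y2, y3, y4⟩ := S.dual hs h1 hv hu vs us v0 uv.symm
  have hW : ∀ w ∈ sp [s, u, v], U s w := fun w hw => sp_ind (S.U0 hs)
    (by simp [S.Us hs, hu, hv]) (fun _ _ => S.Uadd) hw
  have hL := lag_of_three d h64 (W := sp [s, u, v]) (a := u) (b := v) (c := s)
    (fun a ha b hb => S.BU (hW b hb) (hW a ha)) (mem_sp (by simp)) (mem_sp (by simp))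
    (mem_sp (by simp)) u0 v0 uv.symm (by
      rintro (e | e | e | e) <;> rw [e] at h1
      · simp at h1
      · exact zero_ne_one (us.symm.trans h1)
      · exact zero_ne_one (vs.symm.trans h1)
      · rw [B_addl, us, vs] at h1; exact absurd h1 (by decide))
  refine ⟨x, y, x1, y1, x2, y2, x3, x4, y4, y3, fun w hw => ?_, fun w hw => ?_⟩
  · rw [← hL]
    exact fun a ha => S.BU (hW a ha) hw
  · have k := S.Xadd (S.Xadd hw (S.Xsmul hs x1 (d.B u w))) (S.Xsmul hs y1 (d.B v w))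
    have m : w + d.B u w • x + d.B v w • y ∈ sp [s, u, v] := by
      rw [← hL]
      refine fun a ha => sp_ind (R := fun a => d.B a (w + d.B u w • x + d.B v w • y) = 0)
        (by simp) ?_ (fun a b ha hb => by rw [B_addl, ha, hb, add_zero]) ha
      simp only [List.mem_cons, List.not_mem_nil, or_false, forall_eq_or_imp, forall_eq]
      refine ⟨by rw [d.B_symm]; exact S.XB k, ?_, ?_⟩ <;>
        simp only [B_addr, B_smulr, x3, x4, y3, y4] <;> ring_nf <;> reduce_mod_char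
    have m' : w + d.B u w • x + d.B v w • y ∈ sp [s, x, y] := by
      rcases S.inter (hW _ m) k with e | e <;> rw [e]
      exacts [zero_mem _, mem_sp (by simp)]
    have := add_mem (add_mem m' (Submodule.smul_mem _ (d.B v w) (mem_sp (x := y) (by simp))))
      (Submodule.smul_mem _ (d.B u w) (mem_sp (x := x) (by simp)))
    rwa [add_add_cancel', add_add_cancel'] at this

theorem nf2a (h64 : Nat.card V = 64) {s s' u : V} (hs : P s) (h1 : d.B s s' = 1) (hu : U s u)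
    (us : d.B u s' = 0) (u0 : u ≠ 0) (hU : ∀ v, U s v → v ∈ sp [s, u]) :
    ∃ x y w, X s x ∧ X s y ∧ X s w ∧ SB d s s' u x y w := by
  have := d.finite
  obtain ⟨x, x1, x2, x3, -⟩ := S.dual hs h1 hu (S.U0 hs) us (by simp) u0 u0
  have x4 := S.XB x1
  have su := S.BU (S.Us hs) hu
  obtain ⟨y, hy, y0⟩ : ∃ y ∈ d.perp (sp [s, s', u, x]), y ≠ 0 := by
    by_contra hn
    push Not at hn
    have a := card_le_of_subset_list (d.perp (sp [s, s', u, x])) [0] (by simpa using hn)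
    have b := card_sp [s, s', u, x]
    have c := d.card_perp (sp [s, s', u, x])
    have := Nat.mul_le_mul b a
    simp only [List.length_cons, List.length_nil] at this
    omega
  have y1 : d.B s y = 0 := hy _ (mem_sp (by simp))
  have y2 : d.B s' y = 0 := hy _ (mem_sp (by simp))
  have y3 : d.B u y = 0 := hy _ (mem_sp (by simp))
  have y4 : d.B x y = 0 := hy _ (mem_sp (by simp))
  obtain ⟨w, hw⟩ := exists_B_ne (d := d) y0
  obtain ⟨w, w1, w2, w3, w4⟩ : ∃ w, d.B s w = 0 ∧ d.B s' w = 0 ∧ d.B u w = 0 ∧ d.B y w = 1 := by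
    refine ⟨w + d.B s' w • s + d.B s w • s' + d.B u w • x, ?_, ?_, ?_, ?_⟩ <;>
      simp only [B_addr, B_smulr, d.B_self, h1, d.B_symm s' s, d.B_symm s x, x4, d.B_symm s' x,
        x2, d.B_symm u s, su, us, x3, d.B_symm y s, d.B_symm y s', d.B_symm y x, y1, y2, y4,
        d.B_symm y w, z2_ne hw] <;> ring_nf <;> reduce_mod_char
  have key : ∀ y, d.B s y = 0 → d.B s' y = 0 → ∃ y', X s y' ∧ (y' = y ∨ y' = y + u) := by
    intro y a b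
    obtain ⟨y', v, c1, c2, c3, rfl⟩ := S.adjX hs h1 (y := y) (by rw [d.B_symm, a])
    refine ⟨_, c1, ?_⟩
    rw [B_addl, d.B_symm y, b, zero_add] at c3
    rcases mem_sp2.1 (hU v c2) with rfl | rfl | rfl | rfl
    · exact Or.inl (add_zero _)
    · exact Or.inr rfl
    · exact absurd (h1.symm.trans c3) one_ne_zero
    · rw [B_addl, h1, us] at c3; exact absurd c3 (by decide)
  obtain ⟨y', a1, a2⟩ := key y y1 y2
  obtain ⟨w', b1, b2⟩ := key w w1 w2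
  have c1 : d.B s' y' = 0 ∧ d.B u y' = 0 := by
    rcases a2 with rfl | rfl <;> simp [B_addr, y2, y3, d.B_symm s' u, us, d.B_self]
  have c2 : d.B s' w' = 0 ∧ d.B u w' = 0 := by
    rcases b2 with rfl | rfl <;> simp [B_addr, w2, w3, d.B_symm s' u, us, d.B_self]
  have c3 : d.B y' w' = 1 := by
    rcases a2 with rfl | rfl <;> rcases b2 with rfl | rfl <;>
      simp [B_addr, B_addl, w4, w3, d.B_symm _ u, y3, d.B_self]
  have k := S.Xadd (S.Xadd x1 (S.Xsmul hs a1 (d.B x w'))) (S.Xsmul hs b1 (d.B x y'))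
  refine ⟨_, y', w', k, a1, b1, h1, su, by rw [d.B_symm]; exact S.XB k,
    by rw [d.B_symm]; exact S.XB a1, by rw [d.B_symm]; exact S.XB b1, by rw [d.B_symm, us], ?_,
    c1.1, c2.1, ?_, c1.2, c2.2, ?_, ?_, c3⟩ <;>
    simp only [B_addr, B_addl, B_smulr, B_smull, d.B_symm s' x, x2, c1.1, c1.2, c2.1, c2.2, x3,
      d.B_self, c3, d.B_symm w' y'] <;> ring_nf <;> reduce_mod_char

theorem nf2b (h64 : Nat.card V = 64) {s s' u x y w : V} (hs : P s) (hu : U s u) (hx : X s x)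
    (hy : X s y) (hw : X s w) (b : SB d s s' u x y w) {v : V} (hv : X s v) :
    v ∈ sp [s, x, y, w] := by
  have k := S.Xadd (S.Xadd (S.Xadd (S.Xadd hv (S.Xsmul hs (S.Xs hs) (d.B v s')))
    (S.Xsmul hs hx (d.B v u))) (S.Xsmul hs hy (d.B v w))) (S.Xsmul hs hw (d.B v y))
  have m : v + d.B v s' • s + d.B v u • x + d.B v w • y + d.B v y • w + d.B v x • u = 0 := by
    refine b.ext h64 ?_ ?_ ?_ ?_ ?_ ?_ <;>
      simp only [B_addl, B_smull, d.B_self, S.XB hv, d.B_symm s' s, d.B_symm u s,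
        d.B_symm x s, d.B_symm y s, d.B_symm w s, d.B_symm u s', d.B_symm x s',
        d.B_symm y s', d.B_symm w s', d.B_symm x u, d.B_symm y u, d.B_symm w u,
        d.B_symm y x, d.B_symm w x, d.B_symm w y, b.h01, b.h02, b.h03, b.h04, b.h05, b.h12,
        b.h13, b.h14, b.h15, b.h23, b.h24, b.h25, b.h34, b.h35, b.h45] <;> ring_nf <;>
        reduce_mod_char
  rw [H69.XV.add_eq_zero] at m
  have m0 : d.B v x = 0 := by
    by_contra hn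
    rw [m, z2_ne hn, one_smul] at k
    have h23 := b.h23
    have h12 := b.h12
    rcases S.inter hu k with rfl | rfl
    · simp at h23
    · rw [d.B_symm, b.h01] at h12; exact one_ne_zero h12
  rw [m0, zero_smul] at m
  have : v = d.B v s' • s + d.B v u • x + d.B v w • y + d.B v y • w := by
    rw [← H69.XV.add_eq_zero, ← m]; abel
  rw [this]
  refine add_mem (add_mem (add_mem ?_ ?_) ?_) ?_ <;> exact Submodule.smul_mem _ _ (mem_sp (by simp))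

end Sys

/-- a pair of codes describing the action of an element -/
def Gen (d : VD Q z V) (e : ℕ → V) (p : ℕ × ℕ) : Prop :=
  p.1 < 64 ∧ p.2 < 64 ∧ ∃ a, a * z = z * a ∧ Sg d (e p.1) (e p.2) a

theorem ev_1 (a b c d e f : V) : ev a b c d e f 1 = a := by
  show (1 : ZMod 2) • a + (0 : ZMod 2) • b + (0 : ZMod 2) • c + (0 : ZMod 2) • d +
    (0 : ZMod 2) • e + (0 : ZMod 2) • f = a
  simp

theorem ev_2 (a b c d e f : V) : ev a b c d e f 2 = b := by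
  show (0 : ZMod 2) • a + (1 : ZMod 2) • b + (0 : ZMod 2) • c + (0 : ZMod 2) • d +
    (0 : ZMod 2) • e + (0 : ZMod 2) • f = b
  simp

theorem ev_4 (a b c d e f : V) : ev a b c d e f 4 = c := by
  show (0 : ZMod 2) • a + (0 : ZMod 2) • b + (1 : ZMod 2) • c + (0 : ZMod 2) • d +
    (0 : ZMod 2) • e + (0 : ZMod 2) • f = c
  simp

theorem ev_8 (a b c d e f : V) : ev a b c d e f 8 = d := by
  show (0 : ZMod 2) • a + (0 : ZMod 2) • b + (0 : ZMod 2) • c + (1 : ZMod 2) • d +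
    (0 : ZMod 2) • e + (0 : ZMod 2) • f = d
  simp

theorem ev_16 (a b c d e f : V) : ev a b c d e f 16 = e := by
  show (0 : ZMod 2) • a + (0 : ZMod 2) • b + (0 : ZMod 2) • c + (0 : ZMod 2) • d +
    (1 : ZMod 2) • e + (0 : ZMod 2) • f = e
  simp

theorem ev_32 (a b c d e f : V) : ev a b c d e f 32 = f := by
  show (0 : ZMod 2) • a + (0 : ZMod 2) • b + (0 : ZMod 2) • c + (0 : ZMod 2) • d +
    (0 : ZMod 2) • e + (1 : ZMod 2) • f = f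
  simp

theorem exists_bit (x : ZMod 2) : ∃ a < 2, x = (a : ℕ) := by
  rcases z2 x with rfl | rfl
  exacts [⟨0, by decide, rfl⟩, ⟨1, by decide, rfl⟩]

namespace Cod

variable {f : ℕ} {e : ℕ → V} (h : Cod d f e)
include h

theorem ap_spec {g : List (ℕ × ℕ)} (hg : ∀ p ∈ g, Gen d e p) (w : List ℕ) :
    ∃ c, c * z = z * c ∧ ∀ v < 64, ap f g w v < 64 ∧ d.ρ c (e v) = e (ap f g w v) := by
  induction w with
  | nil => exact ⟨1, by simp, fun v hv => ⟨hv, d.ρ_one _⟩⟩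
  | cons i w ih =>
    obtain ⟨c, hc, H⟩ := ih
    obtain ⟨h1, h2, a, ha, h3⟩ := getD_prop (a := (0, 0)) hg ⟨by decide, by decide, 1, by simp,
      fun v => by simp [h.zero, d.ρ_one]⟩ i
    refine ⟨c * a, cmul hc ha, fun v hv => ?_⟩
    rw [d.ρ_mul hc ha, h.sg h1 h2 hv h3]
    exact H _ (EN_lt h1 h2 hv)

theorem card_sp {l : List ℕ} (hl : ∀ x ∈ l, x < 64) (hn : (spn l).Nodup) :
    Nat.card (sp (l.map e)) = (spn l).length := by
  let g : Fin (spn l).length → sp (l.map e) := fun i =>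
    ⟨e ((spn l).get i), h.mem_sp' (List.get_mem _ _)⟩
  have hg : Function.Bijective g := by
    refine ⟨fun i j k => List.nodup_iff_injective_get.1 hn (h.inj (spn_lt hl _ (List.get_mem _ _))
      (spn_lt hl _ (List.get_mem _ _)) (congrArg Subtype.val k)), fun ⟨v, hv⟩ => ?_⟩
    obtain ⟨n, hn, rfl⟩ := h.surj v
    obtain ⟨i, hi⟩ := List.get_of_mem (h.mem_spn hl hn hv)
    exact ⟨i, Subtype.ext (congrArg e hi)⟩
  rw [← Nat.card_eq_of_bijective g hg]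
  simp

variable (S : Sys d P U X)
include S

omit h in
theorem gen {ts : List Tri} (hv : ∀ t ∈ ts, Val e P U X t) : ∀ p ∈ gens ts, Gen d e p := by
  intro p hp
  obtain ⟨t, ht, hp⟩ := List.mem_flatMap.1 hp
  obtain ⟨x, hx, rfl⟩ := List.mem_map.1 hp
  exact ⟨(hv t ht).lt, (hv t ht).ltX x hx, S.sg ((hv t ht).hX x hx)⟩

theorem conf_false {g : List (ℕ × ℕ)} (hg : ∀ p ∈ g, Gen d e p) {a b : Tri} (ha : Val e P U X a)
    (hb : Val e P U X b) {w : List ℕ} (k : conf f g a b w = true) : False := by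
  obtain ⟨c, hc, H⟩ := h.ap_spec hg w
  simp only [conf, Bool.and_eq_true, beq_iff_eq, Bool.or_eq_true, List.any_eq_true,
    Bool.not_eq_true', List.contains_eq_mem, decide_eq_false_iff_not] at k
  obtain ⟨k1, ⟨u, hu, k2⟩ | ⟨u, hu, k2⟩⟩ := k
  · have := S.Uρ hc (ha.hU u hu)
    rw [(H _ ha.lt).2, (H _ (ha.ltU u hu)).2, k1] at this
    exact k2 (h.mem_spn (by simpa [hb.lt] using hb.ltU) (H _ (ha.ltU u hu)).1 (hb.spU _ this))
  · have := S.Xρ hc (ha.hX u hu)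
    rw [(H _ ha.lt).2, (H _ (ha.ltX u hu)).2, k1] at this
    exact k2 (h.mem_spn (by simpa [hb.lt] using hb.ltX) (H _ (ha.ltX u hu)).1 (hb.spX _ this))

theorem confs_false {t : Tri} {ts : List Tri} (ht : Val e P U X t)
    (hv : ∀ t ∈ ts, Val e P U X t) {ws : List (ℕ × ℕ × List ℕ)} (k : confs f t ts ws = true) :
    False := by
  obtain ⟨r, -, k⟩ := List.any_eq_true.1 k
  have hv' : ∀ t' ∈ t :: ts, Val e P U X t' := by simpa [ht] using hv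
  exact h.conf_false S (gen S hv') (getD_prop hv' ht _) (getD_prop hv' ht _) k

variable [Finite G] (h64 : Nat.card V = 64)
include h64

theorem use3 {k k' : ℕ} (hk : k < 64) (hk' : k' < 64) (hP : P (e k)) (h1 : BN k k' = 1)
    (D : D3 U (e k)) {F : Tri → Bool} (hC : C3 f k k' F) :
    ∃ τ, Val e P U X τ ∧ F τ = true := by
  rw [← h.B1 hk hk'] at h1
  obtain ⟨u, v, H⟩ := S.d3' hP h1 D
  obtain ⟨a, ha, rfl⟩ := h.surj u
  obtain ⟨b, hb, rfl⟩ := h.surj v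
  obtain ⟨u, v, ⟨hu, hv, k1, k2, k3, k4, k5, k6, k7⟩, o1, o2⟩ := exists_ord
    (R := fun a b => a < 64 ∧ b < 64 ∧ U (e k) (e a) ∧ U (e k) (e b) ∧ d.B (e a) (e k') = 0 ∧
      d.B (e b) (e k') = 0 ∧ e a ≠ 0 ∧ e b ≠ 0 ∧ e a ≠ e b)
    (fun a b ⟨h1, h2, h3, h4, h5, h6, h7, h8, h9⟩ => ⟨h2, h1, h4, h3, h6, h5, h8, h7, h9.symm⟩)
    (fun a b ⟨h1, h2, h3, h4, h5, h6, h7, h8, h9⟩ => by
      rw [h.xor]
      exact ⟨h1, xor_lt h1 h2, h3, S.Uadd h3 h4, h5, by rw [B_addl, h5, h6, add_zero], h7,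
        mt H69.XV.add_eq_zero.1 h9, fun e => h8 (by simpa using e)⟩)
    ⟨ha, hb, H⟩ ha hb ((h.ne0 ha).1 H.2.2.2.2.1) ((h.ne0 hb).1 H.2.2.2.2.2.1)
    fun e => H.2.2.2.2.2.2 (by rw [e])
  obtain ⟨x, y, a1, a2, a3, a4, a5, a6, a7, a8, a9, a10⟩ := S.nf3 h64 hP h1 k1 k2 k3 k4 k5 k6 k7
  obtain ⟨x, hx, rfl⟩ := h.surj x
  obtain ⟨y, hy, rfl⟩ := h.surj y
  refine ⟨(k, [u, v], [x, y]), ⟨hk, by simp [hu, hv], by simp [hx, hy], hP, by simp [k1, k2],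
    by simp [a1, a2], a9, a10⟩, hC u hu ⟨(h.B0 hu hk).1 (S.BU k1 (S.Us hP)), (h.B0 hu hk').1 k3,
      (h.ne0 hu).1 k5, (h.q0 hu).1 (S.Uq k1)⟩ v hv ⟨o1, o2, (h.B0 hv hk).1 (S.BU k2 (S.Us hP)),
      (h.B0 hv hk').1 k4, (h.q0 hv).1 (S.Uq k2), (h.B0 hu hv).1 (S.BU k1 k2)⟩ x hx
      ⟨(h.B0 hx hk).1 (S.XB a1), (h.B0 hx hk').1 a3, (h.B1 hu hx).1 a5, (h.B0 hv hx).1 a6⟩ y hy
      ⟨(h.B0 hy hk).1 (S.XB a2), (h.B0 hy hk').1 a4, (h.B0 hu hy).1 a7, (h.B1 hv hy).1 a8⟩⟩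

theorem use2 {k k' : ℕ} (hk : k < 64) (hk' : k' < 64) (hP : P (e k)) (h1 : d.B (e k) (e k') = 1)
    {u : V} (k1 : U (e k) u) (k2 : d.B u (e k') = 0) (k3 : u ≠ 0)
    (k4 : ∀ v, U (e k) v → v ∈ sp [e k, u]) {F : Tri → Bool} (hC : C2 f k k' F) :
    ∃ τ, Val e P U X τ ∧ F τ = true := by
  obtain ⟨x, y, w, a1, H⟩ := S.nf2a h64 hP h1 k1 k2 k3 k4
  obtain ⟨u, hu, rfl⟩ := h.surj u
  obtain ⟨x, hx, rfl⟩ := h.surj x
  obtain ⟨a, ha, rfl⟩ := h.surj y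
  obtain ⟨b, hb, rfl⟩ := h.surj w
  have n : ∀ {a b}, d.B (e a) (e b) = 1 → a ≠ 0 ∧ b ≠ 0 ∧ a ≠ b := fun k => by
    refine ⟨?_, ?_, ?_⟩ <;> rintro rfl <;> simp [h.zero, d.B_self] at k
  obtain ⟨y, w, ⟨hy, hw, a2, a3, b⟩, o1, o2⟩ := exists_ord
    (R := fun a b => a < 64 ∧ b < 64 ∧ X (e k) (e a) ∧ X (e k) (e b) ∧
      SB d (e k) (e k') (e u) (e x) (e a) (e b))
    (fun a b ⟨h1, h2, h3, h4, b⟩ => ⟨h2, h1, h4, h3, b.h01, b.h02, b.h03, b.h05, b.h04, b.h12,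
      b.h13, b.h15, b.h14, b.h23, b.h25, b.h24, b.h35, b.h34, by rw [d.B_symm, b.h45]⟩)
    (fun a b ⟨h1, h2, h3, h4, b⟩ => by
      rw [h.xor]
      refine ⟨h1, xor_lt h1 h2, h3, S.Xadd h3 h4, b.h01, b.h02, b.h03, b.h04, ?_, b.h12,
        b.h13, b.h14, ?_, b.h23, b.h24, ?_, b.h34, ?_, ?_⟩ <;>
        simp [b.h04, b.h05, b.h14, b.h15, b.h24, b.h25, b.h34, b.h35, b.h45, d.B_self])
    ⟨ha, hb, H⟩ ha hb (n H.2.2.h45).1 (n H.2.2.h45).2.1 (n H.2.2.h45).2.2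
  refine ⟨(k, [u], [x, y, w]), ⟨hk, by simp [hu], by simp [hx, hy, hw], hP, by simp [k1],
    by simp [a1, a2, a3], k4, fun v hv => S.nf2b h64 hP k1 a1 a2 a3 b hv⟩,
    hC u hu ⟨(h.B0 hu hk).1 (S.BU k1 (S.Us hP)), (h.B0 hu hk').1 k2, (h.ne0 hu).1 k3,
      (h.q0 hu).1 (S.Uq k1)⟩ x hx ⟨(h.B0 hx hk).1 (S.XB a1),
      (h.B0 hx hk').1 (by rw [d.B_symm, b.h13]), (h.B1 hu hx).1 b.h23⟩ y hy
      ⟨(h.B0 hy hk).1 (S.XB a2), (h.B0 hy hk').1 (by rw [d.B_symm, b.h14]), (h.B0 hu hy).1 b.h24,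
        (h.B0 hx hy).1 b.h34, (n b.h45).1⟩ w hw ⟨o1, o2, (h.B0 hw hk).1 (S.XB a3),
        (h.B0 hw hk').1 (by rw [d.B_symm, b.h15]), (h.B0 hu hw).1 b.h25, (h.B0 hx hw).1 b.h35⟩⟩

end Cod

theorem bt2 : ∀ a < 2, ∀ b < 2, ∀ c < 2, bt (8 * a + 16 * b + 32 * c) 0 = 0 ∧
    bt (8 * a + 16 * b + 32 * c) 1 = 0 ∧ bt (8 * a + 16 * b + 32 * c) 2 = 0 ∧
    bt (8 * a + 16 * b + 32 * c) 3 = a ∧ bt (8 * a + 16 * b + 32 * c) 4 = b ∧
    bt (8 * a + 16 * b + 32 * c) 5 = c := by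
  decide +kernel

theorem Sys.two [Finite G] (S : Sys d P U X) (h64 : Nat.card V = 64) {t u : V} (ht : P t)
    (hu : U t u) (u0 : u ≠ 0) (ut : u ≠ t) : D3 U t := by
  by_contra hn
  obtain ⟨s, hs, h1⟩ := S.span (S.ne0 ht)
  obtain ⟨u', k1, k2, k3, k4⟩ := S.d2 ht hu u0 ut hn ht (d.B_symm _ _ ▸ h1)
  obtain ⟨x, y, w, a1, a2, a3, sb⟩ := S.nf2a h64 ht (d.B_symm _ _ ▸ h1) k1 k2 k3 k4
  obtain ⟨a, ha, ea⟩ := exists_bit (d.q x)
  obtain ⟨b, hb, eb⟩ := exists_bit (d.q y)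
  obtain ⟨c, hc, ec⟩ := exists_bit (d.q w)
  obtain ⟨b0, b1, b2, b3, b4, b5⟩ := bt2 a ha b hb c hc
  have h := sb.cod h64 (f := 8 * a + 16 * b + 32 * c) (by omega) (b0 ▸ S.q0 ht) (b1 ▸ S.q0 hs)
    (b2 ▸ S.Uq k1) (b3 ▸ ea) (b4 ▸ eb) (b5 ▸ ec)
  obtain ⟨v, l1, l2, l3, l4⟩ := S.d2 ht hu u0 ut hn hs h1
  obtain ⟨τ, hτ, k⟩ := h.use2 S h64 (k := 2) (k' := 1) (u := v) (by decide) (by decide)
    (by rwa [ev_2]) (by rwa [ev_1, ev_2]) (by rwa [ev_2]) (by rwa [ev_1]) l3 (by rwa [ev_2])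
    (chk2 a ha b hb c hc)
  refine h.confs_false S ⟨by decide, by decide, by decide, by rwa [ev_1], ?_, ?_, ?_, ?_⟩
    (by simpa using hτ) k
  · simpa [ev_1, ev_4] using k1
  · simp [ev_1, ev_8, ev_16, ev_32, a1, a2, a3]
  · simpa [ev_1, ev_4] using k4
  · simpa [ev_1, ev_8, ev_16, ev_32] using fun v hv => S.nf2b h64 ht k1 a1 a2 a3 sb (v := v) hv

theorem n34 [Finite G] (S : Sys d P U X) (h64 : Nat.card V = 64) {t u : V} (ht : P t)
    (hu : U t u) (u0 : u ≠ 0) (ut : u ≠ t) : ∃ U₁ U₂ : Submodule (ZMod 2) V,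
      (∀ s, P s ↔ s ≠ 0 ∧ (s ∈ U₁ ∨ s ∈ U₂)) ∧ U₁ ⊓ U₂ = ⊥ ∧ Nat.card U₁ = 8 ∧
      Nat.card U₂ = 8 ∧ t ∈ U₁ ∧ ∀ w ∈ U₂, d.B w t = 0 → X t w := by
  have D := S.two h64 ht hu u0 ut
  obtain ⟨s, hs, h1⟩ := S.span (S.ne0 ht)
  have h1' : d.B t s = 1 := d.B_symm _ _ ▸ h1
  obtain ⟨u, v, k1, k2, k3, k4, k5, k6, k7⟩ := S.d3' ht h1' D
  obtain ⟨x, y, a1, a2, a3, a4, a5, a6, a7, a8, a9, a10⟩ := S.nf3 h64 ht h1' k1 k2 k3 k4 k5 k6 k7
  obtain ⟨c, hc, ec⟩ := exists_bit (d.B x y)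
  have sb : SB d t s u (x + (c : ZMod 2) • v) v y := by
    have b1 := S.BU (S.Us ht) k1
    have b2 := S.BU (S.Us ht) k2
    have b3 := S.BU k1 k2
    constructor <;> simp only [B_addr, B_addl, B_smulr, B_smull, h1', b1, b2, b3, d.B_symm t x,
      d.B_symm t y, S.XB a1, S.XB a2, d.B_symm s u, d.B_symm s v, d.B_symm s x, d.B_symm s y,
      k3, k4, a3, a4, a5, a6, a7, a8, d.B_symm x v, d.B_self, ec] <;> ring_nf <;> reduce_mod_char
  obtain ⟨a, ha, ea⟩ := exists_bit (d.q (x + (c : ZMod 2) • v))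
  obtain ⟨b, hb, eb⟩ := exists_bit (d.q y)
  obtain ⟨b0, b1, b2, b3, b4, b5⟩ := bt2 a ha 0 (by decide) b hb
  have h := sb.cod h64 (f := 8 * a + 32 * b) (by omega) (b0 ▸ S.q0 ht) (b1 ▸ S.q0 hs)
    (b2 ▸ S.Uq k1) (b3 ▸ ea) (b4 ▸ S.Uq k2) (b5 ▸ eb)
  have e1 := ev_1 t s u (x + (c : ZMod 2) • v) v y
  have e2 := ev_2 t s u (x + (c : ZMod 2) • v) v y
  have e4 := ev_4 t s u (x + (c : ZMod 2) • v) v y
  have e16 := ev_16 t s u (x + (c : ZMod 2) • v) v y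
  have e32 := ev_32 t s u (x + (c : ZMod 2) • v) v y
  have e8 : ev t s u (x + (c : ZMod 2) • v) v y (8 ^^^ c * 16) = x := by
    rw [h.xor, h.mul hc, ev_8, ev_16, add_add_cancel']
  generalize ev t s u (x + (c : ZMod 2) • v) v y = e at h e1 e2 e4 e8 e16 e32
  subst e1 e2 e4 e8 e16 e32
  have v1 : Val e P U X (1, [4, 16], [8 ^^^ c * 16, 32]) :=
    ⟨by simp, by simp, by interval_cases c <;> decide, ht, by simp [k1, k2],
      by simp [a1, a2], a9, a10⟩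
  obtain ⟨τ, v2, k⟩ := h.use3 S h64 (k := 2) (k' := 1) (by decide) (by decide) hs (by decide)
    (S.d3 ht hs D) (chk1 a ha b hb c hc)
  obtain ⟨r, hr, k⟩ := List.any_eq_true.1 ((Bool.or_eq_true _ _ ▸ k).resolve_left
    fun k => h.confs_false S v1 (by simpa using v2) k)
  simp only [Bool.and_eq_true, beq_iff_eq] at k
  obtain ⟨⟨r1, r2⟩, r3⟩ := k
  rw [← r1] at h
  rw [← r2] at v1
  rw [← r3] at v2
  have hg := Cod.gen S (e := e) (ts := [r.2.1, r.2.2.1]) (by simp [v1, v2])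
  have A : ∀ k < 64, P (e k) → ¬ if r.2.2.2.1 = 0 then
      k ∉ spn (1 :: r.2.2.1.2.2) ∧ k ∉ spn (2 :: r.2.1.2.2) else BN k r.2.2.2.1 = 1 := by
    intro k hk hP hb
    obtain ⟨w, -, p, hp, ep⟩ := (chk4 r hr).2 k hk
      ⟨(h.ne0 hk).1 (S.ne0 hP), (h.q0 hk).1 (S.q0 hP), hb⟩
    obtain ⟨g, hg, H⟩ := h.ap_spec hg w
    have := S.Pρ hg hP
    rw [(H k hk).2, ep] at this
    obtain ⟨c1, c2, c3, c4⟩ := chk3 r hr p hp
    obtain ⟨τ, v3, k⟩ := h.use3 S h64 c1 c2 this c3 (S.d3 ht this D) c4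
    exact h.confs_false S v1 (by simp [v2, v3]) k
  have r0 : r.2.2.2.1 = 0 := by
    by_contra r0
    obtain ⟨p, hp, k⟩ := S.span ((h.ne0 (chk4 r hr).1).2 r0)
    obtain ⟨n, hn, rfl⟩ := h.surj p
    exact A n hn hp (by rw [if_neg r0, ← h.B1 hn (chk4 r hr).1, k])
  obtain ⟨c1, c2, c3, c4, c5, c6, c7, c8, c9⟩ := chk5 r hr r0
  have l1 : ∀ x ∈ 1 :: r.2.2.1.2.2, x < 64 := by simpa using v2.ltX
  have l2 : ∀ x ∈ 2 :: r.2.1.2.2, x < 64 := by simpa using v1.ltX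
  refine ⟨sp ((1 :: r.2.2.1.2.2).map e), sp ((2 :: r.2.1.2.2).map e), fun p => ?_, ?_,
    by rw [h.card_sp l1 c6, c7], by rw [h.card_sp l2 c8, c9], mem_sp (by simp), fun w hw hB => ?_⟩
  · obtain ⟨n, hn, rfl⟩ := h.surj p
    refine ⟨fun hp => ⟨S.ne0 hp, ?_⟩, fun ⟨n0, hp⟩ => ?_⟩
    · have := A n hn hp
      rw [if_pos r0, not_and_or, not_not, not_not] at this
      exact this.imp h.mem_sp' h.mem_sp'
    · obtain ⟨w, -, k⟩ := c3 n (List.mem_append.2 (hp.imp (h.mem_spn l1 hn) (h.mem_spn l2 hn)))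
        ((h.ne0 hn).1 n0)
      obtain ⟨g, hg, H⟩ := h.ap_spec hg w
      have : P (d.ρ g (e n)) := by
        rw [(H n hn).2]
        simp only [List.mem_cons, List.not_mem_nil, or_false] at k
        rcases k with k | k <;> rw [k] <;> assumption
      exact d.ρ_inv_ρ hg (e n) ▸ S.Pρ (cinv hg) this
  · refine (Submodule.eq_bot_iff _).2 fun p ⟨p1, p2⟩ => ?_
    obtain ⟨n, hn, rfl⟩ := h.surj p
    rw [c4 n (h.mem_spn l1 hn p1) (h.mem_spn l2 hn p2), h.zero]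
  · obtain ⟨n, hn, rfl⟩ := h.surj w
    refine sp_ind (S.X0 ht) (fun x hx => ?_) (fun _ _ => S.Xadd) (h.mem_sp'
      (c5 n (h.mem_spn l2 hn hw) ((h.B0 hn (by decide)).1 hB)))
    obtain ⟨m, hm, rfl⟩ := List.mem_map.1 hx
    rcases List.mem_cons.1 hm with rfl | hm
    exacts [S.Xs ht, c1 ▸ v1.hX m hm]

end Cfsg.Agent.H92.W3
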